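import Mathlib
import Cfsg.Agent.UGL.ClWall
import Cfsg.Agent.Chev.Oct2
import Cfsg.Agent.Classical.SpMat

/-! Groups covered by the conjugates of two proper subgroups: characteristic two. -/

set_option autoImplicit false
set_option linter.unusedSectionVars false

namespace Cfsg.Agent.Cvr

open Module Cfsg.Agent.Conj Cfsg.Agent.Classical.SpWitt

/-- covered by the conjugates of two proper subgroups -/
def Cov (G : Type*) [Group G] : Prop := ∃ H K : Subgroup G, H ≠ ⊤ ∧ K ≠ ⊤ ∧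
  ∀ g : G, ∃ x : G, x * g * x⁻¹ ∈ H ∨ x * g * x⁻¹ ∈ K

/-- the same, with subgroups containing the centre -/
def CovZ (G : Type*) [Group G] : Prop := ∃ H K : Subgroup G, Subgroup.center G ≤ H ∧ Subgroup.center G ≤ K ∧
  H ≠ ⊤ ∧ K ≠ ⊤ ∧ ∀ g : G, ∃ x : G, x * g * x⁻¹ ∈ H ∨ x * g * x⁻¹ ∈ K

theorem CovZ.quot {G G' : Type*} [Group G] [Group G'] (h : CovZ G) (e : G' ≃* G) :
    Cov (G' ⧸ Subgroup.center G') := by
  obtain ⟨H, K, h1, h2, h3, h4, h5⟩ := h
  let f : G →* G' ⧸ Subgroup.center G' := (QuotientGroup.mk' _).comp e.symm.toMonoidHom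
  have hf : Function.Surjective f := (QuotientGroup.mk'_surjective _).comp e.symm.surjective
  have key : ∀ L : Subgroup G, Subgroup.center G ≤ L → L ≠ ⊤ → L.map f ≠ ⊤ := fun L hL hL' e1 => hL' (by
    rw [← Subgroup.comap_map_eq_self (f := f) (H := L) fun g hg => hL ?_, e1, Subgroup.comap_top]
    exact (Classical.SpMat.mem_center_congr e.symm).mp ((QuotientGroup.eq_one_iff _).mp hg))
  refine ⟨H.map f, K.map f, key H h1 h3, key K h2 h4, fun g => ?_⟩
  obtain ⟨g, rfl⟩ := hf g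
  obtain ⟨x, hx⟩ := h5 g
  refine ⟨f x, ?_⟩
  rw [← map_inv, ← map_mul, ← map_mul]
  exact hx.imp (Subgroup.mem_map_of_mem f) (Subgroup.mem_map_of_mem f)

variable {F : Type*} [Field F]

theorem as_add [Finite F] [CharP F 2] {a b : F} (ha : ∀ s, s ^ 2 + s ≠ a) (hb : ∀ s, s ^ 2 + s ≠ b) :
    ∃ s, s ^ 2 + s = a + b := by
  let φ : F →+ F := ⟨⟨fun s => s ^ 2 + s, by simp⟩, fun s t => by simp only [CharTwo.add_sq]; ring⟩
  have h1 : Nat.card φ.ker = 2 := by
    rw [Nat.card_eq_two_iff]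
    refine ⟨⟨0, by simp⟩, ⟨1, by simpa [φ] using CharTwo.add_self_eq_zero (1 : F)⟩, by simp, ?_⟩
    rw [Set.eq_univ_iff_forall]
    rintro ⟨s, hs⟩
    have hs' : s ^ 2 + s = 0 := hs
    have : s * (s + 1) = 0 := by linear_combination hs'
    rcases mul_eq_zero.mp this with h | h
    · simp [h]
    · simp [CharTwo.add_eq_zero.mp h]
  have h2 : φ.range.index = 2 := by
    have e1 := φ.ker.card_mul_index
    have e2 := φ.range.card_mul_index
    rw [h1, AddSubgroup.index_ker, ← e2, mul_comm] at e1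
    exact (Nat.eq_of_mul_eq_mul_left Nat.card_pos e1).symm
  exact (AddSubgroup.add_mem_iff_of_index_two h2).mpr (iff_of_false (fun ⟨s, hs⟩ => ha s hs) fun ⟨s, hs⟩ => hb s hs)

section sp

variable {V : Type*} [AddCommGroup V] [Module F V] [FiniteDimensional F V] {B : LinearMap.BilinForm F V}

/-- the stabiliser of a function -/
def stF (B : LinearMap.BilinForm F V) (Q : V → F) : Subgroup (SG B) where
  carrier := {g | ∀ x, Q (g.1 x) = Q x}
  mul_mem' {a b} ha hb x := (ha _).trans (hb x)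
  one_mem' _ := rfl
  inv_mem' {a} ha x := by rw [← ha, SG.apply_inv]

theorem covZ_sp_two [Finite F] [CharP F 2] (hB : B.Nondegenerate) (hA : B.IsAlt) {Q : V → F}
    (h1 : ∀ x y, Q (x + y) = Q x + Q y + B x y) (h2 : ∀ c x, Q (c • x) = c ^ 2 * Q x) {e f : V}
    (he : e ≠ 0) (hf : ∀ s : F, s • e + f ≠ 0) (hef : B e f = 0) : CovZ (SG B) := by
  have two : (2 : F) = 0 := CharP.cast_eq_zero F 2
  have hE := ef_of_alt hB hA
  let P : V → V → F := fun w x => Q x + B w x ^ 2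
  have p1 : ∀ w x y, P w (x + y) = P w x + P w y + B x y := fun w x y => by
    simp only [P, h1, map_add, CharTwo.add_sq]; ring
  have p2 : ∀ w c x, P w (c • x) = c ^ 2 * P w x := fun w c x => by
    simp only [P, h2, map_smul, smul_eq_mul]; ring
  have p3 : ∀ w a c x, P w ((tv hA a c).1 x) = P w x + B x a ^ 2 * (c + c ^ 2 * P w a) := fun w a c x => by
    rw [tv_apply, p1, p2, map_smul, smul_eq_mul]; ring
  have c1 : ∀ w, Subgroup.center (SG B) ≤ stF B (P w) := fun w g hg x => by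
    rcases (Classical.SpSimple.mem_center_iff hB hA).mp hg with rfl | rfl
    · rfl
    · rw [Classical.SpSimple.negSG_apply, ← neg_one_smul F, p2]; ring
  have c2 : ∀ w, stF B (P w) ≠ ⊤ := fun w h => by
    obtain ⟨a, ha, ha'⟩ : ∃ a, a ≠ 0 ∧ P w a = 0 := by
      by_cases h0 : P w e = 0
      · exact ⟨e, he, h0⟩
      obtain ⟨s, hs⟩ := (frobeniusEquiv F 2).surjective (P w f / P w e)
      rw [frobeniusEquiv_apply, frobenius_def] at hs
      refine ⟨_, hf s, ?_⟩
      rw [p1, p2, hs, map_smul, LinearMap.smul_apply, hef, div_mul_cancel₀ _ h0]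
      linear_combination P w f * two
    obtain ⟨x, hx⟩ := exists_one hB hA.isRefl ha
    have := (h ▸ Subgroup.mem_top (tv hA a 1) : tv hA a 1 ∈ stF B (P w)) x
    rw [p3, ha', ← hA.neg_eq, hx] at this
    simp at this
  have c3 : ∀ (g : SG B) w w', g ∈ stF B (P w') → (∃ s, s ^ 2 + s = P w (w + w')) →
      ∃ x, x * g * x⁻¹ ∈ stF B (P w) := by
    rintro g w w' hg ⟨s, hs⟩
    obtain ⟨s, s0, hs⟩ : ∃ s, s ≠ 0 ∧ s ^ 2 + s = P w (w + w') := by
      by_cases h0 : s = 0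
      · exact ⟨1, one_ne_zero, by rw [← hs, h0]; linear_combination two⟩
      · exact ⟨s, h0, hs⟩
    have e1 : ∀ x, P w ((tv hA (w + w') s⁻¹).1 x) = P w' x := fun x => by
      rw [p3, ← hs, ← hA.neg_eq]
      simp only [P, map_add, LinearMap.add_apply]
      field_simp
      linear_combination (B w x ^ 2 * s + B w x * B w' x * s + (B w x + B w' x) ^ 2) * two
    exact ⟨tv hA (w + w') s⁻¹, fun x => by rw [SG.mul_apply, SG.mul_apply, e1, hg, ← e1, SG.apply_inv]⟩
  have c4 : ∀ g : SG B, ∃ w, g ∈ stF B (P w) := fun g => by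
    let l : V →ₗ[F] F :=
      { toFun := fun x => (frobeniusEquiv F 2).symm (Q (g.1 x) - Q x)
        map_add' := fun x y => by rw [← map_add, map_add g.1, h1, h1, SG.map]; congr 1; ring
        map_smul' := fun c x => by
          rw [RingEquiv.symm_apply_eq, RingHom.id_apply, smul_eq_mul, map_mul, RingEquiv.apply_symm_apply,
            map_smul, h2, h2, frobeniusEquiv_apply, frobenius_def]
          ring }
    have hl : ∀ x, l x ^ 2 = Q (g.1 x) - Q x := fun x => (frobeniusEquiv F 2).apply_symm_apply _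
    obtain ⟨c, hc⟩ := hE.exists_dual_eq l
    obtain ⟨z, hz⟩ := (uIso_iff.mpr g.2 : UIso B (g.1.toLinearMap - 1)).mem_range hE 1 (b := c) fun y hy => by
      have : g.1 y = y := by simpa [sub_eq_zero] using hy
      rw [hc]
      exact pow_eq_zero_iff two_ne_zero |>.mp (by rw [hl, this, sub_self])
    refine ⟨g.1 z, fun x => ?_⟩
    have e1 : B (g.1 z) x - B z x = l x := by rw [← hc, ← hz]; simp
    have e2 := hl x
    simp only [P, SG.map]
    rw [← e1] at e2
    linear_combination -e2 + (B z x ^ 2 - B (g.1 z) x * B z x) * two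
  by_cases h : ∀ w, ∃ s, s ^ 2 + s = Q w
  · refine ⟨_, _, c1 0, c1 0, c2 0, c2 0, fun g => ?_⟩
    obtain ⟨w, hw⟩ := c4 g
    exact (c3 g 0 w hw (by simpa [P] using h w)).imp fun x => Or.inl
  push Not at h
  obtain ⟨w1, h3⟩ := h
  refine ⟨_, _, c1 0, c1 w1, c2 0, c2 w1, fun g => ?_⟩
  obtain ⟨w, hw⟩ := c4 g
  by_cases h : ∃ s, s ^ 2 + s = Q w
  · exact (c3 g 0 w hw (by simpa [P] using h)).imp fun x => Or.inl
  push Not at h
  obtain ⟨s, hs⟩ := as_add h3 h
  refine (c3 g w1 w hw ⟨s + B w1 w, ?_⟩).imp fun x => Or.inr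
  simp only [P, h1, map_add, hA w1, CharTwo.add_sq]
  linear_combination hs

theorem cov_PSp_two [Finite F] [CharP F 2] {m : ℕ} (hm : 2 ≤ m) : Cov (Cfsg.PSp m F) := by
  have two : (2 : F) = 0 := CharP.cast_eq_zero F 2
  obtain ⟨m, rfl⟩ := Nat.exists_eq_add_of_le' hm
  refine CovZ.quot (covZ_sp_two Classical.SpMat.sB_nondeg Classical.SpMat.sB_alt
    (Q := fun v => ∑ i, v (.inl i) * v (.inr i)) (e := Pi.single (.inl 0) 1) (f := Pi.single (.inl 1) 1)
    (fun x y => ?_) (fun c x => ?_) (by simp) (fun s h => by simpa using congrFun h (.inl 1))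
    (by simp [Classical.SpMat.sB_single, Matrix.J])) (Classical.SpMat.spEquiv _ F)
  · rw [Classical.SpMat.sB_eq_sum, ← Finset.sum_add_distrib, ← Finset.sum_add_distrib]
    exact Finset.sum_congr rfl fun i _ => by
      simp only [Pi.add_apply]; linear_combination (x (.inl i) * y (.inr i)) * two
  · rw [Finset.mul_sum]
    exact Finset.sum_congr rfl fun i _ => by simp only [Pi.smul_apply, smul_eq_mul]; ring

end sp

section g2

open Cfsg.Agent.Chev.Oct Cfsg.Lie

theorem nm_ac {g : GL (Fin 8) F} (hg : g ∈ G2 F) (x : Fin 8 → F) : nm (ac g x) = nm x := by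
  rw [G2_eq] at hg
  induction hg using Subgroup.closure_induction generalizing x with
  | mem g hg => obtain ⟨r, t, rfl⟩ := hg; rw [ac_X]; exact nm_act r t x
  | one => simp [ac]
  | mul a b _ _ ha hb => rw [ac_mul, ha, hb]
  | inv a _ ha => rw [← ha, ac_inv]

/-- the orbit of a standard element of trace one -/
def Rn (n : F) (x : Fin 8 → F) : Prop := ∃ e ∈ G2 F, ac e x = ![1, 1, 0, 0, -n, 0, 0, 0]

theorem Rn.step {n : F} {x : Fin 8 → F} (r : Fin 12) (t : F) (h : Rn n (act r t x)) : Rn n x := by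
  obtain ⟨g, hg, h⟩ := h
  exact ⟨g * X r t, mul_mem hg (X_mem r t), (ac_mul _ _ _).trans (by rw [← h]; exact congrArg _ (ac_X _ _ _))⟩

theorem rn_of {n : F} (hn : ∀ s, s * (1 - s) ≠ n) {x : Fin 8 → F} (h1 : tr x = 1) (h2 : nm x = n) : Rn n x := by
  have n0 : n ≠ 0 := fun h => hn 0 (by simp [h])
  let P : (Fin 8 → F) → Prop := fun x => tr x = 1 ∧ nm x = n
  have hP : ∀ {x} (r : Fin 12) t, P x → P (act r t x) := fun r t h => ⟨by rw [tr_act, h.1], by rw [nm_act, h.2]⟩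
  have k0 : ∀ x, P x → x 0 = 1 → x 7 = 0 ∧ x 1 * x 4 + x 2 * x 5 + x 3 * x 6 = -n := fun x h h0 => by
    have h7 : x 7 = 0 := by have := h.1; rw [tr] at this; linear_combination this - h0
    exact ⟨h7, by have := h.2; rw [nm, h7] at this; linear_combination -this⟩
  have k1 : ∀ x, P x → x 0 = 1 → x 1 = 1 → x 2 = 0 → x 3 = 0 → Rn n x := fun x h h0 h1 h2 h3 => by
    obtain ⟨h7, h4⟩ := k0 x h h0
    simp only [h1, h2, h3, one_mul, zero_mul, add_zero] at h4
    refine Rn.step 5 (x 5 / n) (Rn.step 10 (x 6 / n) ⟨1, one_mem _, ?_⟩)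
    simp [ac, act, h0, h1, h2, h3, h4, h7, n0]
  have k2 : ∀ x, P x → x 0 = 1 → x 2 ≠ 0 → Rn n x := fun x h h0 h2 =>
    Rn.step 5 ((x 1 - 1) / x 2) (Rn.step 6 (x 2) (Rn.step 1 (x 3) (k1 _ (hP _ _ (hP _ _ (hP _ _ h)))
      (by simp [act, h0]) (by simp [act, h2]) (by simp [act, h2]) (by simp [act, h2]))))
  have k3 : ∀ x, P x → x 0 = 1 → Rn n x := fun x h h0 => by
    by_cases h2 : x 2 = 0
    swap
    · exact k2 x h h0 h2
    by_cases h1 : x 1 = 0
    swap
    · exact Rn.step 6 1 (k2 _ (hP _ _ h) (by simp [act, h0]) (by simp [act, h1, h2]))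
    refine Rn.step 11 1 (k2 _ (hP _ _ h) (by simp [act, h0]) ?_)
    have := (k0 x h h0).2
    have h3 : x 3 ≠ 0 := fun h3 => by simp [h1, h2, h3, n0] at this
    simp [act, h2, h3]
  by_cases a1 : x 1 = 0
  swap
  · exact Rn.step 4 ((1 - x 0) / x 1) (k3 _ (hP _ _ ⟨h1, h2⟩) (by simp [act, a1]))
  by_cases a2 : x 2 = 0
  swap
  · exact Rn.step 3 ((x 0 - 1) / x 2) (k3 _ (hP _ _ ⟨h1, h2⟩) (by simp [act, a2]))
  by_cases a3 : x 3 = 0
  swap
  · exact Rn.step 9 ((x 0 - 1) / x 3) (k3 _ (hP _ _ ⟨h1, h2⟩) (by simp [act, a3]))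
  rw [tr] at h1
  rw [nm, a1, a2, a3] at h2
  exact absurd (by linear_combination h2 - x 0 * h1) (hn (x 0))

/-- the stabiliser of a quadratic subalgebra -/
def stA (x : Fin 8 → F) : Subgroup (G2 F) where
  carrier := {g | ∃ c : F, ac g.1 x = x + c • one8 F}
  mul_mem' {a b} := by
    rintro ⟨c, hc⟩ ⟨d, hd⟩
    exact ⟨c + d, by rw [Subgroup.coe_mul, ac_mul, hd, ac_add, hc, ac_smul, ac_one8 a.2, add_smul, add_assoc]⟩
  one_mem' := ⟨0, by simp [ac]⟩
  inv_mem' {a} := by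
    rintro ⟨c, hc⟩
    refine ⟨-c, ac_inj a.1 ?_⟩
    rw [Subgroup.coe_inv, ac_inv, ac_add, hc, ac_smul, ac_one8 a.2, neg_smul, add_neg_cancel_right]

/-- the polar form of the norm -/
def bO (F : Type*) [Field F] : LinearMap.BilinForm F (Fin 8 → F) :=
  LinearMap.mk₂ F (fun x y => x 0 * y 7 + x 7 * y 0 - (x 1 * y 4 + x 2 * y 5 + x 3 * y 6 + x 4 * y 1 + x 5 * y 2 +
    x 6 * y 3)) (fun _ _ _ => by simp; ring) (fun _ _ _ => by simp; ring) (fun _ _ _ => by simp; ring)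
    (fun _ _ _ => by simp; ring)

theorem bO_eq (x y : Fin 8 → F) : bO F x y = nm (x + y) - nm x - nm y := by simp [bO, nm]; ring

theorem ef_bO : EF (bO F) 1 := ⟨fun _ => rfl, Or.inl rfl, fun x y => by simp [bO]; ring, fun x h => by
  have := fun i => h (Pi.single i 1)
  have h0 := this 0; have h1 := this 1; have h2 := this 2; have h3 := this 3
  have h4 := this 4; have h5 := this 5; have h6 := this 6; have h7 := this 7
  simp [bO] at h0 h1 h2 h3 h4 h5 h6 h7
  ext i; fin_cases i <;> simp [*]⟩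

theorem cov_G2 [Finite F] [CharP F 2] : Cov (G2 F) := by
  have two : (2 : F) = 0 := CharP.cast_eq_zero F 2
  have c1 : ∀ g : G2 F, ∃ x, tr x = 1 ∧ g ∈ stA x := fun g => by
    by_cases h : ∃ y, ac g.1 y = y ∧ tr y ≠ 0
    · obtain ⟨y, h1, h2⟩ := h
      exact ⟨(tr y)⁻¹ • y, by rw [← inv_mul_cancel₀ h2]; simp [tr, mul_add], 0, by simp [ac_smul, h1]⟩
    push Not at h
    obtain ⟨z, hz⟩ := (uIso_iff.mpr fun x y => by
      simp only [rho_apply, bO_eq, ← ac_add, nm_ac g.2] : UIso (bO F) (rho F g.1 - 1)).mem_range ef_bO 1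
      (b := one8 F) fun y hy => by
        have := h y (by simpa [sub_eq_zero, rho_apply] using hy)
        rw [tr] at this
        simpa [bO, one8, add_comm] using this
    have e1 : ac g.1 z = z + one8 F := by rw [← hz]; simp [rho_apply]
    refine ⟨z, ?_, 1, by rw [e1, one_smul]⟩
    have e2 := nm_ac g.2 z
    rw [e1] at e2
    simp [nm, one8] at e2
    rw [tr]
    linear_combination e2 - two
  have c2 : ∀ (g : G2 F) x y (s : F), g ∈ stA x → (∃ e ∈ G2 F, ac e (x + s • one8 F) = y) →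
      ∃ e, e * g * e⁻¹ ∈ stA y := by
    rintro g x _ s ⟨c, hc⟩ ⟨e, he, rfl⟩
    refine ⟨⟨e, he⟩, c, ?_⟩
    rw [Subgroup.coe_mul, Subgroup.coe_mul, Subgroup.coe_inv, ac_mul, ac_mul, inv_ac]
    simp only [ac_add, ac_smul, hc, ac_one8 he, ac_one8 g.2]
    abel
  have c3 : ∀ a b : F, stA ![1, a, 0, 0, b, 0, 0, 0] ≠ ⊤ := fun a b h => by
    obtain ⟨c, hc⟩ : (⟨X (8 : Fin 12) 1, X_mem _ _⟩ : G2 F) ∈ stA ![1, a, 0, 0, b, 0, 0, 0] := h ▸ trivial
    have := congrFun ((ac_X _ _ _).symm.trans hc) 2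
    simp [act, one8] at this
  have c4 : ∀ (x : Fin 8 → F) (s : F), tr x = 1 → tr (x + s • one8 F) = 1 ∧
      nm (x + s • one8 F) = nm x + (s ^ 2 + s) := fun x s h => by
    rw [tr] at h
    constructor <;> simp [tr, nm, one8]
    · linear_combination h + s * two
    · linear_combination s * h
  have c5 : ∀ g : G2 F, ∀ x, tr x = 1 → g ∈ stA x → (∃ s, s ^ 2 + s = nm x) →
      ∃ e, e * g * e⁻¹ ∈ stA ![1, 0, 0, 0, 0, 0, 0, 0] := by
    rintro g x h1 h2 ⟨s, hs⟩
    obtain ⟨e, he, h⟩ := R7 (c4 x s h1).1 (by rw [(c4 x s h1).2, hs]; linear_combination nm x * two)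
    exact c2 g x _ s h2 ⟨e, E_le he, h⟩
  by_cases h : ∀ n : F, ∃ s, s ^ 2 + s = n
  · refine ⟨_, _, c3 0 0, c3 0 0, fun g => ?_⟩
    obtain ⟨x, h1, h2⟩ := c1 g
    exact (c5 g x h1 h2 (h _)).imp fun x => Or.inl
  push Not at h
  obtain ⟨n, hn⟩ := h
  refine ⟨_, _, c3 0 0, c3 1 (-n), fun g => ?_⟩
  obtain ⟨x, h1, h2⟩ := c1 g
  by_cases h : ∃ s, s ^ 2 + s = nm x
  · exact (c5 g x h1 h2 h).imp fun x => Or.inl
  push Not at h
  obtain ⟨s, hs⟩ := as_add h hn
  exact (c2 g x _ s h2 (rn_of (fun s e => hn s (by linear_combination e + s ^ 2 * two)) (c4 x s h1).1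
    (by rw [(c4 x s h1).2, hs]; linear_combination nm x * two))).imp fun x => Or.inr

end g2

end Cfsg.Agent.Cvr
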