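import Mathlib
import Cfsg.Agent.Cov.Basic
import Cfsg.Agent.Classical.GLGeom

/-! Groups covered by the conjugates of two proper subgroups: linear groups. -/

set_option autoImplicit false
set_option linter.unusedSectionVars false

namespace Cfsg.Agent.Cvr

open Module Polynomial Matrix Cfsg.Agent.Conj

variable {F : Type*} [Field F] {V : Type*} [AddCommGroup V] [Module F V] {G : Type*} [Group G] [Finite G]

/-- a submonoid of a finite group -/
def subF (S : Set G) (h1 : 1 ∈ S) (hm : ∀ a ∈ S, ∀ b ∈ S, a * b ∈ S) : Subgroup G where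
  carrier := S
  one_mem' := h1
  mul_mem' ha hb := hm _ ha _ hb
  inv_mem' {a} ha := by
    have : ∀ n : ℕ, a ^ n ∈ S := fun n => by
      induction n with
      | zero => rwa [pow_zero]
      | succ n ih => exact pow_succ a n ▸ hm _ ih _ ha
    rw [show a⁻¹ = a ^ (orderOf a - 1) from inv_eq_of_mul_eq_one_left (by
      rw [← pow_succ, Nat.sub_add_cancel (orderOf_pos a), pow_orderOf_eq_one])]
    exact this _

/-- the stabiliser of a subspace -/
def stW (ρ : G →* End F V) (W : Submodule F V) : Subgroup G :=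
  subF {g | ∀ x ∈ W, ρ g x ∈ W} (fun x hx => by simpa using hx) fun a ha b hb x hx => by
    rw [map_mul]; exact ha _ (hb x hx)

/-- the normaliser of a set of endomorphisms -/
def stE (ρ : G →* End F V) (S : Set (End F V)) : Subgroup G :=
  subF {g | ∀ s ∈ S, ∃ s' ∈ S, ρ g * s = s' * ρ g} (fun s hs => ⟨s, hs, by simp⟩) fun a ha b hb s hs => by
    obtain ⟨t, ht, e⟩ := hb s hs
    obtain ⟨u, hu, e'⟩ := ha t ht
    exact ⟨u, hu, by rw [map_mul, mul_assoc, e, ← mul_assoc, e', mul_assoc]⟩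

variable {ρ : G →* End F V}

theorem stW_conj {W W' : Submodule F V} {g x : G} (hg : ∀ v ∈ W, ρ g v ∈ W) (h : W.map (ρ x) = W') :
    x * g * x⁻¹ ∈ stW ρ W' := by
  subst h
  rintro _ ⟨v, hv, rfl⟩
  rw [← End.mul_apply, ← map_mul, inv_mul_cancel_right, map_mul]
  exact ⟨_, hg v hv, rfl⟩

theorem center_stW (h : ∀ z ∈ Subgroup.center G, ∃ c : F, ∀ v, ρ z v = c • v) (W : Submodule F V) :
    Subgroup.center G ≤ stW ρ W := fun z hz x hx => by
  obtain ⟨c, hc⟩ := h z hz
  exact hc x ▸ W.smul_mem c hx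

theorem center_stE (h : ∀ z ∈ Subgroup.center G, ∃ c : F, ∀ v, ρ z v = c • v) (S : Set (End F V)) :
    Subgroup.center G ≤ stE ρ S := fun z hz s hs => by
  obtain ⟨c, hc⟩ := h z hz
  exact ⟨s, hs, LinearMap.ext fun v => by simp [hc]⟩

theorem exists_irr (F : Type*) [Field F] [Finite F] (d : ℕ) [NeZero d] :
    ∃ f : F[X], Irreducible f ∧ f.Monic ∧ f.natDegree = d := by
  obtain ⟨p, hp⟩ := CharP.exists F
  have : Fact p.Prime := ⟨CharP.char_is_prime F p⟩
  obtain ⟨a, ha⟩ := Field.exists_primitive_element F (FiniteField.Extension F p d)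
  have hi := Algebra.IsIntegral.isIntegral (R := F) a
  exact ⟨_, minpoly.irreducible hi, minpoly.monic hi, by
    rw [(Field.primitive_element_iff_minpoly_natDegree_eq F a).mp ha, FiniteField.finrank_extension]⟩

theorem exists_root {E : Type*} [Field E] [Algebra F E] [Finite E] {f : F[X]} (hf : Irreducible f)
    (hm : f.Monic) (h : f.natDegree ∣ finrank F E) : ∃ z : E, aeval z f = 0 := by
  have : Fact (Irreducible f) := ⟨hf⟩
  obtain ⟨φ⟩ := FiniteField.nonempty_algHom_of_finrank_dvd (F := F) (K := AdjoinRoot f) (L := E)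
    (by rwa [finrank_adjoinRoot hm])
  exact ⟨φ (AdjoinRoot.root f), by rw [aeval_algHom_apply, AdjoinRoot.aeval_eq, AdjoinRoot.mk_self, map_zero]⟩

theorem root_pow [Finite F] {f p : F[X]} (hf : Irreducible f) (hm : f.Monic) (hp : Irreducible p) (hm' : p.Monic)
    (h : f.natDegree ∣ p.natDegree) (e : ℕ) : ∃ y : AdjoinRoot (p ^ e), aeval y f = 0 := by
  have : Fact (Irreducible p) := ⟨hp⟩
  have := hm'.finite_adjoinRoot
  have : Finite (AdjoinRoot p) := Module.finite_of_finite F
  have := Fintype.ofFinite F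
  obtain ⟨z, hz⟩ := exists_root (E := AdjoinRoot p) hf hm (by rwa [finrank_adjoinRoot hm'])
  obtain ⟨r, rfl⟩ := AdjoinRoot.mk_surjective z
  rw [← AdjoinRoot.aeval_eq, ← aeval_comp, AdjoinRoot.aeval_eq, AdjoinRoot.mk_eq_zero] at hz
  refine ⟨(FiniteField.frobeniusAlgHom F _ ^ e) (AdjoinRoot.mk _ r), ?_⟩
  rw [aeval_algHom_apply, AlgHom.coe_pow, FiniteField.coe_frobeniusAlgHom, pow_iterate, ← AdjoinRoot.aeval_eq,
    ← aeval_comp, AdjoinRoot.aeval_eq]
  exact (map_pow _ _ _).symm.trans (AdjoinRoot.mk_eq_zero.mpr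
    (pow_dvd_pow_of_dvd_of_le hz (Nat.lt_pow_self Fintype.one_lt_card).le))

theorem exists_comm [Finite F] [FiniteDimensional F V] {f : F[X]} (hf : Irreducible f) (hm : f.Monic)
    (g : End F V) (h : ∀ p, Irreducible p → p ∣ g.charpoly → f.natDegree ∣ p.natDegree) :
    ∃ j : End F V, g * j = j * g ∧ aeval j f = 0 := by
  obtain ⟨t, p, e, hp, hm', he, s⟩ := exists_model g
  have := finite_alg fun i => (hm' i).pow (n := e i)
  choose y hy using fun i => root_pow hf hm (hp i) (hm' i) (h _ (hp i) (by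
    rw [s.charpoly_eq, charpoly_mdl fun i => (hm' i).pow _]
    exact (dvd_pow_self _ (he i).ne').trans (Finset.dvd_prod_of_mem _ (Finset.mem_univ i)))) (e i)
  obtain ⟨k, rfl⟩ := s.symm.conj_eq
  refine ⟨k.conjAlgEquiv F (LinearMap.mulLeft F (y : Alg fun i => p i ^ e i)), ?_, ?_⟩
  · change k.conjAlgEquiv F _ * _ = _ * k.conjAlgEquiv F _
    rw [← map_mul, ← map_mul]
    exact congrArg _ (LinearMap.ext fun v => mul_left_comm _ _ v)
  · rw [aeval_algHom_apply, aeval_mulLeft, show aeval (y : Alg fun i => p i ^ e i) f = 0 from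
      funext fun i => by rw [aeval_pi_apply₂, hy]; rfl]
    simp

theorem sim_of_irr [FiniteDimensional F V] {W : Type*} [AddCommGroup W] [Module F W] [FiniteDimensional F W]
    {f : F[X]} (hf : Irreducible f) (hm : f.Monic) {j : End F V} {j' : End F W}
    (h : aeval j f = 0) (h' : aeval j' f = 0) (hd : finrank F V = finrank F W) : Sim j j' := by
  obtain ⟨t, p, hp, h1, h2, s⟩ := exists_model_ss hf.squarefree h
  obtain ⟨t', p', hp', h1', h2', s'⟩ := exists_model_ss hf.squarefree h'
  have e : ∀ i, p i = f := fun i => eq_of_monic_of_associated (h1 i) hm ((hp i).associated_of_dvd hf (h2 i))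
  have e' : ∀ i, p' i = f := fun i => eq_of_monic_of_associated (h1' i) hm ((hp' i).associated_of_dvd hf (h2' i))
  rw [s.finrank_eq, s'.finrank_eq, finrank_alg h1, finrank_alg h1'] at hd
  simp only [e, e', Finset.sum_const, Finset.card_fin, smul_eq_mul] at hd
  obtain rfl := Nat.eq_of_mul_eq_mul_right hf.natDegree_pos hd
  exact s.trans ((sim_mdl_equiv (Equiv.refl _) fun i => (e' i).trans (e i).symm).trans s'.symm)

theorem exists_eig [FiniteDimensional F V] {g : End F V} {p : F[X]} (h : p ∣ g.charpoly) (h1 : p.natDegree = 1) :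
    ∃ (c : F) (v : V), v ≠ 0 ∧ g v = c • v := by
  obtain ⟨c, hc⟩ := exists_root_of_degree_eq_one ((degree_eq_iff_natDegree_eq_of_pos one_pos).mpr h1)
  obtain ⟨v, hv⟩ := ((End.hasEigenvalue_iff_isRoot_charpoly g c).2 (hc.dvd h)).exists_hasEigenvector
  exact ⟨c, v, hv.2, hv.apply_eq_smul⟩

theorem deg_of_no_eig [FiniteDimensional F V] {g : End F V} (h : ∀ (c : F) v, g v = c • v → v = 0) {p : F[X]}
    (hp : Irreducible p) (h1 : p ∣ g.charpoly) :
    2 ≤ p.natDegree ∧ p.natDegree ≤ finrank F V ∧ p.natDegree + 1 ≠ finrank F V := by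
  have key : ∀ r, r ∣ g.charpoly → r.natDegree ≠ 1 := fun r hr e => by
    obtain ⟨c, v, h1, h2⟩ := exists_eig hr e
    exact h1 (h c v h2)
  have h2 := key p h1
  have h3 := hp.natDegree_pos
  obtain ⟨r, hr⟩ := h1
  have h4 := key r (Dvd.intro_left _ hr.symm)
  have h5 := g.charpoly_natDegree
  rw [hr, natDegree_mul hp.ne_zero (by rintro rfl; exact g.charpoly_monic.ne_zero (by simpa using hr))] at h5
  omega

/-- the natural representation -/
def slRep (n : ℕ) (F : Type*) [Field F] : SpecialLinearGroup (Fin n) F →* End F (Fin n → F) where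
  toFun g := toLin' g.1
  map_one' := by simp [End.one_eq_id]
  map_mul' a b := by simp [End.mul_eq_comp]

theorem covZ_SL [Finite F] {n d : ℕ} (hd : 2 ≤ d) (hn : ∀ k, 2 ≤ k → k ≤ n + 2 → k + 1 ≠ n + 2 → d ∣ k) :
    CovZ (SpecialLinearGroup (Fin (n + 2)) F) := by
  have : NeZero d := ⟨by omega⟩
  obtain ⟨f, hf, hm, rfl⟩ := exists_irr F d
  have hZ : ∀ z ∈ Subgroup.center _, ∃ c : F, ∀ v, slRep (n + 2) F z v = c • v := fun z hz => by
    obtain ⟨r, -, hr⟩ := Matrix.SpecialLinearGroup.mem_center_iff.mp hz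
    exact ⟨r, fun v => by simp [slRep, ← hr, funext_iff, mulVec_diagonal]⟩
  have h0 : (Pi.single 0 1 : Fin (n + 2) → F) ≠ 0 := by simp
  have c1 : stW (slRep (n + 2) F) (F ∙ Pi.single 0 1) ≠ ⊤ := fun h => by
    have : SpecialLinearGroup.transvection (one_ne_zero (α := Fin (n + 2))) (1 : F) ∈
      stW (slRep (n + 2) F) (F ∙ Pi.single 0 1) := h ▸ trivial
    obtain ⟨c, hc⟩ := Submodule.mem_span_singleton.mp (this _ (Submodule.mem_span_singleton_self _))
    simpa [slRep, SpecialLinearGroup.transvection, Matrix.transvection] using congrFun hc 1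
  have c2 : ∀ g : SpecialLinearGroup (Fin (n + 2)) F, (∃ x, x * g * x⁻¹ ∈ stW (slRep (n + 2) F) (F ∙ Pi.single 0 1)) ∨
      ∃ j, slRep _ F g * j = j * slRep _ F g ∧ aeval j f = 0 := fun g => by
    by_cases h : ∀ (c : F) v, slRep _ F g v = c • v → v = 0
    · refine Or.inr (exists_comm hf hm _ fun p hp h1 => ?_)
      have := deg_of_no_eig h hp h1
      rw [finrank_fin_fun] at this
      exact hn _ this.1 this.2.1 this.2.2
    push Not at h
    obtain ⟨c, v, h1, h2⟩ := h
    obtain ⟨x, a, hx⟩ := Classical.GLGeom.exists_SL_mulVec_eq_smul h2 h0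
    refine Or.inl ⟨x, stW_conj (W := F ∙ v) (fun w hw => ?_) ?_⟩
    · obtain ⟨b, rfl⟩ := Submodule.mem_span_singleton.mp hw
      rw [map_smul, h1]
      exact Submodule.smul_mem _ _ (Submodule.smul_mem _ _ (Submodule.mem_span_singleton_self _))
    · rw [Submodule.map_span, Set.image_singleton, show slRep _ F x v = _ from hx,
        Submodule.span_singleton_smul_eq]
      refine IsUnit.mk0 _ ?_
      rintro rfl
      exact h2 (Matrix.eq_zero_of_mulVec_eq_zero (by rw [x.2]; exact one_ne_zero) (by simpa using hx))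
  by_cases h : ∃ j : End F (Fin (n + 2) → F), aeval j f = 0
  swap
  · exact ⟨_, _, center_stW hZ _, center_stW hZ _, c1, c1, fun g =>
      ((c2 g).resolve_right fun ⟨j, hj⟩ => h ⟨j, hj.2⟩).imp fun _ => Or.inl⟩
  obtain ⟨j0, h⟩ := h
  refine ⟨_, stE _ {j0}, center_stW hZ _, center_stE hZ _, c1, fun e => ?_, fun g => ?_⟩
  · obtain ⟨J, rfl⟩ := toLin'.surjective j0
    obtain ⟨r, rfl⟩ := Matrix.mem_range_scalar_of_commute_single (M := J) fun a b hab => by
      have : SpecialLinearGroup.transvection hab (1 : F) ∈ stE (slRep (n + 2) F) {toLin' J} := e ▸ trivial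
      obtain ⟨_, rfl, h1⟩ := this _ rfl
      have h2 : Matrix.transvection a b (1 : F) * J = J * Matrix.transvection a b 1 :=
        toLin'.injective (by rw [toLin'_mul', toLin'_mul']; exact h1)
      simpa [Matrix.transvection, add_mul, mul_add, commute_iff_eq] using h2
    rw [← toLin'_aeval, show scalar (Fin (n + 2)) r = algebraMap F _ r from rfl, aeval_algebraMap_apply,
      LinearEquiv.map_eq_zero_iff, map_eq_zero_iff _ (algebraMap F _).injective] at h
    have : f.natDegree = 1 := natDegree_eq_of_degree_eq_some (degree_eq_one_of_irreducible_of_root hf h)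
    omega
  rcases c2 g with h1 | ⟨j, h1, h2⟩
  · exact h1.imp fun _ => Or.inl
  obtain ⟨k, hk⟩ := sim_of_irr hf hm h2 h rfl
  obtain ⟨c, hc, hc'⟩ := exists_commute_det_ss hf.squarefree h (LinearMap.det k.toLinearMap)⁻¹
  let x : SpecialLinearGroup (Fin (n + 2)) F := ⟨LinearMap.toMatrix' (c * k.toLinearMap), by
    rw [LinearMap.det_toMatrix', map_mul, hc', inv_mul_cancel₀ k.isUnit_det'.ne_zero]⟩
  have hx : slRep _ F x * j = j0 * slRep _ F x := by
    rw [show slRep _ F x = c * k.toLinearMap from toLin'_toMatrix' _, ← mul_assoc, ← hc, mul_assoc, mul_assoc]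
    congr 1
    exact LinearMap.ext hk
  refine ⟨x, Or.inr ?_⟩
  rintro s rfl
  refine ⟨_, rfl, ((slRep _ F).toHomUnits x).isUnit.mul_right_cancel ?_⟩
  change _ * slRep _ F x = _ * slRep _ F x
  rw [mul_assoc, ← hx, ← mul_assoc, ← map_mul, mul_assoc s, ← map_mul, inv_mul_cancel_right, map_mul, mul_assoc, h1,
    ← mul_assoc, hx, mul_assoc]

end Cfsg.Agent.Cvr
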