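import Mathlib
import Cfsg.Agent.Cov.SL
import Cfsg.Agent.Conj.SsU
import Cfsg.Agent.UGL.ClDual
import Cfsg.Agent.Herm.Embed

/-! Groups covered by the conjugates of two proper subgroups: unitary groups. -/

set_option autoImplicit false
set_option linter.unusedSectionVars false

namespace Cfsg.Agent.Cvr

open Module Polynomial Cfsg.Agent.Conj Cfsg.Agent.Herm Cfsg.Agent.UGL.Cl

variable {F : Type*} [Field F] {V : Type*} [AddCommGroup V] [Module F V] [FiniteDimensional F V]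

theorem sim_of_reg {W : Type*} [AddCommGroup W] [Module F W] [FiniteDimensional F W] {f : End F V} {g : End F W} {n : ℕ}
    (hV : finrank F V = n + 1) (hW : finrank F W = n + 1) (hf : IsNilpotent f) (hg : IsNilpotent g)
    (hf' : f ^ n ≠ 0) (hg' : g ^ n ≠ 0) : Sim f g := by
  suffices H : ∀ {t : ℕ} {d : Fin t → ℕ}, (∀ k, 0 < d k) → ∑ k, d k = n + 1 → nil F d ^ n ≠ 0 →
      finrank F (LinearMap.range (nil F d)) = n + 1 - 1 by
    obtain ⟨t, d, h1, h2⟩ := exists_jordan hf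
    obtain ⟨t', d', h1', h2'⟩ := exists_jordan hg
    exact (sim_cyc_of_regular hf hV (h2.finrank_range.trans (H h1 (by rw [← finrank_nil (F := F), ← h2.finrank_eq, hV])
      fun e => hf' ((h2.pow n).zero_iff.2 e)))).trans (sim_cyc_of_regular hg hW (h2'.finrank_range.trans (H h1'
      (by rw [← finrank_nil (F := F), ← h2'.finrank_eq, hW]) fun e => hg' ((h2'.pow n).zero_iff.2 e)))).symm
  intro t d h1 h2 h3
  have h4 := finrank_range_nil (F := F) h1
  obtain ⟨k, hk⟩ := not_forall.1 (mt (nil_pow_eq_zero_iff (F := F) d n).2 h3)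
  have h5 : _ ≤ ∑ i ∈ _, d i := Finset.card_nsmul_le_sum (Finset.univ.erase k) d 1 fun i _ => h1 i
  have h6 : d k + ∑ i ∈ _, d i = ∑ i, d i := Finset.add_sum_erase _ d (Finset.mem_univ k)
  have h7 := Finset.card_erase_add_one (Finset.mem_univ k)
  simp only [smul_eq_mul, mul_one, Finset.card_univ] at h5 h7
  omega

theorem not_mem_stE {G : Type*} [Group G] [Finite G] {ρ : G →* End F V} {E : Type*} [Field E] [Algebra F E]
    (φ : E →ₐ[F] End F V) (hE : finrank F E ≠ 1) (hV : 3 ≤ finrank F V) {g : G} {l : V →ₗ[F] F} {v y : V} (hv : v ≠ 0)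
    (hy : l y ≠ 0) (hg : ∀ x, ρ g x = x + l x • v) : g ∉ stE ρ (Set.range φ) := fun h => by
  have inj : ∀ a : E, ∀ x, x ≠ 0 → φ a x = 0 → a = 0 := fun a x hx k => by
    by_contra h0
    exact hx (by rw [← End.one_apply (R := F) x, ← map_one φ, ← inv_mul_cancel₀ h0, map_mul, End.mul_apply, k, map_zero])
  refine hE (Subalgebra.bot_eq_top_iff_finrank_eq_one.1 (top_le_iff.1 fun a _ => ?_))
  obtain ⟨_, ⟨b, rfl⟩, k⟩ := h _ ⟨a, rfl⟩
  obtain ⟨x, h1, h2⟩ := (Submodule.ne_bot_iff _).1 (LinearMap.ker_ne_bot_of_finrank_lt (f := l.prod (l ∘ₗ φ a))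
    (by simp; omega))
  simp only [LinearMap.mem_ker, LinearMap.prod_apply, Function.prod, LinearMap.comp_apply, Prod.mk_eq_zero] at h1
  have k1 := LinearMap.congr_fun k x
  have k2 := LinearMap.congr_fun k y
  simp only [End.mul_apply, hg, h1.1, h1.2, zero_smul, add_zero] at k1
  obtain rfl := sub_eq_zero.1 (inj (a - b) x h2 (by rw [map_sub, LinearMap.sub_apply, k1, sub_self]))
  simp only [End.mul_apply, hg, map_add, map_smul, add_right_inj] at k2
  refine ⟨l (φ a y) / l y, (sub_eq_zero.1 (inj _ v hv ?_))⟩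
  change φ (algebraMap F E _ - a) v = 0
  rw [map_sub, AlgHom.commutes, LinearMap.sub_apply, Module.algebraMap_end_apply, div_eq_inv_mul, mul_smul, k2,
    inv_smul_smul₀ hy, sub_self]

/-- the scalars of an extension field -/
noncomputable def scl (E : Type*) [Field E] [Algebra F E] {U : Type*} [AddCommGroup U] [Module F U] [Module E U]
    [IsScalarTower F E U] (e : U ≃ₗ[F] V) : E →ₐ[F] End F V :=
  (e.conjAlgEquiv F).toAlgHom.comp (Algebra.lsmul F F U)

theorem mem_stE {G : Type*} [Group G] [Finite G] {ρ : G →* End F V} {E : Type*} [Field E] [Algebra F E] {U : Type*}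
    [AddCommGroup U] [Module F U] [Module E U] [IsScalarTower F E U] {e : U ≃ₗ[F] V} {g : G} {m : End F U}
    (h : ∀ v, ρ g v = e (m (e.symm v))) (hm : ∀ a : E, ∃ b : E, ∀ x, m (a • x) = b • m x) :
    g ∈ stE ρ (Set.range (scl E e)) := by
  rintro _ ⟨s, rfl⟩
  obtain ⟨t, ht⟩ := hm s
  exact ⟨_, ⟨t, rfl⟩, LinearMap.ext fun v => by simp [h, scl, ht]⟩

variable [Finite F] {σ : F →+* F} {B : V →ₛₗ[σ] V →ₗ[F] F} {q : ℕ}

theorem odd_of_dual (hσ : Inv σ) (hF : Nat.card F = q ^ 2) {p : F[X]} (hp : Irreducible p) (hm : p.Monic)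
    (h0 : p.coeff 0 ≠ 0) (h : p ∣ dual σ p) : Odd p.natDegree ∧ p ∣ X ^ (q ^ p.natDegree + 1) - 1 := by
  have : Fact (Irreducible p) := ⟨hp⟩
  have := hm.finite_adjoinRoot
  have : Finite (AdjoinRoot p) := Module.finite_of_finite F
  have h1 : AdjoinRoot.root p ≠ 0 := fun e => h0 (by
    have := AdjoinRoot.aeval_eq (f := p) p
    rwa [e, AdjoinRoot.mk_self, ← coeff_zero_eq_aeval_zero', map_eq_zero] at this)
  have h2 : aeval (AdjoinRoot.root p) (dual σ p) = 0 := by rwa [AdjoinRoot.aeval_eq, AdjoinRoot.mk_eq_zero]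
  rw [dual_apply, map_mul, aeval_reverse (mul_inv_cancel₀ h1), aeval_C, mul_eq_zero, mul_eq_zero, map_eq_zero] at h2
  let τ := AdjoinRoot.lift ((algebraMap F _).comp σ) (AdjoinRoot.root p)⁻¹ (by
    rw [← eval₂_map]
    exact (h2.resolve_left (by simpa using h0)).resolve_left (pow_ne_zero _ h1))
  have t1 : ∀ a, τ (algebraMap F _ a) = algebraMap F _ (σ a) := fun a => AdjoinRoot.lift_of _
  have t2 : τ (AdjoinRoot.root p) = (AdjoinRoot.root p)⁻¹ := AdjoinRoot.lift_root _
  obtain ⟨a, ha⟩ := hσ.ne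
  have hτ : Inv τ := ⟨fun x => RingHom.congr_fun (AdjoinRoot.ringHom_ext (f := τ.comp τ) (g := RingHom.id _)
    (RingHom.ext fun a => by simpa [hσ.invol] using (congrArg τ (t1 a)).trans (t1 _)) (by simp [t2])) x,
    algebraMap F _ a, by rwa [t1, ne_eq, (algebraMap F _).injective.eq_iff]⟩
  have h3 := hτ.apply_pow (q := q ^ p.natDegree) (by rw [card_adjoinRoot hm, hF, ← pow_mul, ← pow_mul, mul_comm])
  refine ⟨Nat.not_even_iff_odd.1 fun ⟨k, hk⟩ => ha ((algebraMap F (AdjoinRoot p)).injective ?_), ?_⟩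
  · have := Fintype.ofFinite F
    rw [← t1, h3, ← map_pow, hk, ← two_mul, pow_mul, ← hF, Nat.card_eq_fintype_card, FiniteField.pow_card_pow]
  · rw [← AdjoinRoot.mk_eq_zero, ← AdjoinRoot.aeval_eq]
    simp [pow_succ, ← h3, t2, h1]

omit [Finite F] in
theorem aeval_comm (f : End F V) (p r : F[X]) (x : V) : aeval f p (aeval f r x) = aeval f r (aeval f p x) := by
  rw [← End.mul_apply, ← map_mul, mul_comm, map_mul, End.mul_apply]

omit [Finite F] in
theorem exists_minpoly [Nontrivial V] {f : End F V} (h : ∀ W : Submodule F V, (∀ x ∈ W, f x ∈ W) → W = ⊥ ∨ W = ⊤) :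
    ∃ p : F[X], Irreducible p ∧ p.Monic ∧ aeval f p = 0 ∧ p.natDegree = finrank F V := by
  have hi := Algebra.IsIntegral.isIntegral (R := F) f
  obtain ⟨p, hm, hp, r, hr⟩ := exists_monic_irreducible_factor _ (minpoly.not_isUnit F f)
  have h1 : aeval f p = 0 := LinearMap.ker_eq_top.1 ((h (LinearMap.ker (aeval f p)) fun x hx => by
      simpa [LinearMap.mem_ker.1 hx] using aeval_comm f p X x).resolve_left fun e =>
    minpoly.aeval_ne_zero_of_dvdNotUnit_minpoly hi (hm.of_mul_monic_left (hr ▸ minpoly.monic hi))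
      ⟨by rintro rfl; exact minpoly.ne_zero hi (by simpa using hr), p, hp.not_isUnit, hr.trans (mul_comm _ _)⟩
      (LinearMap.ext fun x => LinearMap.ker_eq_bot'.1 e _ (by rw [← End.mul_apply, ← map_mul, ← hr, minpoly.aeval]; rfl)))
  refine ⟨p, hp, hm, h1, le_antisymm ?_ ?_⟩
  · rw [minpoly.eq_of_irreducible_of_monic hp h1 hm, ← f.charpoly_natDegree]
    exact natDegree_le_of_dvd f.minpoly_dvd_charpoly f.charpoly_monic.ne_zero
  obtain ⟨v, hv⟩ := exists_ne (0 : V)
  let L : F[X] →ₗ[F] V := LinearMap.applyₗ v ∘ₗ (aeval f).toLinearMap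
  have h2 := (h ((degreeLT F p.natDegree).map L) (by
    rintro _ ⟨s, -, rfl⟩
    refine ⟨(X * s) %ₘ p, mem_degreeLT.2 (degree_eq_natDegree hm.ne_zero ▸ degree_modByMonic_lt _ hm), ?_⟩
    simp [L, aeval_modByMonic_eq_self_of_root h1])).resolve_left fun e => hv (by
      simpa [L] using e.le ⟨1, mem_degreeLT.2 (by simpa using hp.natDegree_pos), rfl⟩)
  rw [← finrank_top, ← h2]
  exact (Submodule.finrank_map_le _ _).trans (by rw [(degreeLTEquiv F _).finrank_eq, finrank_fin_fun])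

theorem irr_unitary (hB : HF B) (hF : Nat.card F = q ^ 2) [Nontrivial V] (g : UG B)
    (h : ∀ W : Submodule F V, (∀ x ∈ W, g.1 x ∈ W) → W = ⊥ ∨ W = ⊤) : Odd (finrank F V) ∧ ∃ p : F[X], Irreducible p ∧
      p.Monic ∧ aeval (g.1 : End F V) p = 0 ∧ p.natDegree = finrank F V ∧ p ∣ X ^ (q ^ finrank F V + 1) - 1 := by
  obtain ⟨p, hp, hm, h1, h2⟩ := exists_minpoly (f := (g.1 : End F V)) h
  have h0 : p.coeff 0 ≠ 0 := fun e => by
    obtain ⟨v, hv⟩ := exists_ne (0 : V)
    rw [← eq_of_monic_of_associated monic_X hm (irreducible_X.associated_of_dvd hp (X_dvd_iff.2 e)), aeval_X] at h1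
    exact hv ((UG.apply_eq_zero g).1 (LinearMap.congr_fun h1 v))
  have h3 : ∀ r x y, B (aeval (g.1 : End F V) r x) y = B x (aeval ((g⁻¹).1 : End F V) (r.map σ) y) := fun r => by
    induction r using Polynomial.induction_on with
    | C a => simp
    | add r s k1 k2 => simp [Polynomial.map_add, k1, k2]
    | monomial n a k =>
      intro x y
      rw [pow_succ, ← mul_assoc, Polynomial.map_mul, map_mul, End.mul_apply, k, mul_comm _ (Polynomial.map σ X), map_mul,
        map_X, aeval_X, aeval_X]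
      exact (UG.b_inv_right g _ _).symm
  have := odd_of_dual hB.toInv hF hp hm h0 (by
    have := minpoly.dvd F _ (LinearMap.ker_eq_top.1 ((ker_dual (σ := σ) (g := (g.1 : End F V)) (g' := (g⁻¹).1)
      (LinearMap.ext fun x => by simp) h0).trans (LinearMap.ker_eq_top.2 (LinearMap.ext fun y => hB.nd' _ fun x => by
        rw [← h3, h1]; simp))))
    rwa [← minpoly.eq_of_irreducible_of_monic hp h1 hm] at this)
  rw [h2] at this
  exact ⟨this.1, p, hp, hm, h1, h2, this.2⟩

omit [Finite F] in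
theorem eig_of_one {f : End F V} {W : Submodule F V} (h : ∀ x ∈ W, f x ∈ W) (h1 : finrank F W = 1) {v : V}
    (hv : v ∈ W) (h0 : v ≠ 0) : ∃ c : F, f v = c • v := by
  obtain ⟨c, hc⟩ := (finrank_eq_one_iff_of_nonzero' (⟨v, hv⟩ : W) (by simpa using h0)).1 h1 ⟨_, h v hv⟩
  exact ⟨c, (congrArg Subtype.val hc).symm⟩

omit [Finite F] in
theorem eig_of_one' {f : End F V} {W : Submodule F V} (h : ∀ x ∈ W, f x ∈ W) (h1 : finrank F W = 1) :
    ∃ (v : V) (c : F), v ≠ 0 ∧ f v = c • v := by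
  obtain ⟨v, hv, h0⟩ := (Submodule.ne_bot_iff W).1 (by rintro rfl; simp at h1)
  exact ⟨v, (eig_of_one h h1 hv h0).imp fun _ k => ⟨h0, k⟩⟩

omit [Finite F] in
theorem perp_inv {g : UG B} {W : Submodule F V} (h : ∀ x ∈ W, g.1 x ∈ W) : ∀ x ∈ perp B W, g.1 x ∈ perp B W :=
  fun x => (stab_le_stab_perp W (mem_stab_of_le h) x).1

omit [Finite F] in
theorem span_inv {f : End F V} {v : V} {c : F} (h : f v = c • v) : ∀ x ∈ F ∙ v, f x ∈ F ∙ v := fun x hx => by
  obtain ⟨b, rfl⟩ := Submodule.mem_span_singleton.mp hx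
  rw [map_smul, h]
  exact Submodule.smul_mem _ _ (Submodule.smul_mem _ _ (Submodule.mem_span_singleton_self _))

theorem eig_two (hB : HF B) (hF : Nat.card F = q ^ 2) (hV : finrank F V = 2) (g : UG B) (c : F) :
    ∃ (v : V) (d : F), v ≠ 0 ∧ g.1 v = d • v ∧ (B v v = 0 ∨ d ≠ c) := by
  have := Module.nontrivial_of_finrank_pos (R := F) (M := V) (by omega)
  obtain ⟨W, h1, h2⟩ := not_forall₂.1 fun h => absurd (irr_unitary hB hF g h).1 (by rw [hV]; decide)
  obtain ⟨w, d, hw, hd⟩ := eig_of_one' (f := (g.1 : End F V)) h1 (by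
    have k1 := Submodule.finrank_lt (not_or.1 h2).2
    have k2 := (Submodule.finrank_eq_zero (S := W)).not.2 (not_or.1 h2).1
    omega)
  replace hd : g.1 w = d • w := hd
  by_contra! H
  obtain ⟨k, rfl⟩ := H w d hw hd
  obtain ⟨x, hx, hx0⟩ := hB.exists_isotropic hV.ge
  have h3 : x - (B w x / B w w) • w ∈ perp B (F ∙ w) := mem_perp_singleton.2 (by simp [k])
  refine (H x d hx ?_).1 hx0
  by_cases h4 : x - (B w x / B w w) • w = 0
  · rw [sub_eq_zero.1 h4, map_smul, hd, smul_comm]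
  obtain ⟨e, he⟩ := eig_of_one (f := (g.1 : End F V)) (perp_inv (span_inv (f := (g.1 : End F V)) hd))
    (by have := hB.finrank_perp_singleton hw; omega) h3 h4
  obtain rfl := (H _ e h4 he).2
  simpa [hd, smul_sub, smul_comm e] using he

omit [Finite F] in
theorem exists_proj (hB : HF B) (g : UG B) {v f : V} {c : F} (hv : B v v = 0) (hf : B f f = 0) (hvf : B v f = 1)
    (hg : g.1 v = c • v) : ∃ h : UG (res B (perp B (Submodule.span F {v, f}))), ∀ x : perp B (Submodule.span F {v, f}),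
      ∃ a : F, g.1 x = h.1 x + a • v := by
  have h1 : ∀ x : perp B (Submodule.span F {v, f}), B v (g.1 x) = 0 := fun x =>
    mem_perp_singleton.1 (perp_inv (span_inv (f := (g.1 : End F V)) hg) _ (mem_perp_singleton.2 (mem_perp_pair.1 x.2).1))
  refine ⟨(hB.res_perp_hyp hv hf hvf).ofLin (LinearMap.codRestrict _ (((LinearMap.id : V →ₗ[F] V) - (B f).smulRight v) ∘ₗ
    (g.1 : V →ₗ[F] V) ∘ₗ Submodule.subtype _) fun x => ?_) fun x y => ?_, fun x => ⟨B f (g.1 x), by simp⟩⟩
  · simpa [h1] using hB.hyp_proj_mem hv hf hvf (g.1 x)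
  · simp [h1, hv, hB.zero_symm (h1 x)]

omit [Finite F] in
theorem eig_lift {f : End F V} {v w : V} {a c d : F} (hv : f v = c • v) (hw : f w = d • w + a • v) (h : d ≠ c) :
    f (w + (a / (d - c)) • v) = d • (w + (a / (d - c)) • v) := by
  have := sub_ne_zero.2 h
  rw [map_add, map_smul, hv, hw, smul_add, add_assoc, smul_smul, smul_smul, ← add_smul]
  congr 2
  field_simp
  ring

/-- the natural representation -/
def suRep (B : V →ₛₗ[σ] V →ₗ[F] F) : SUG B →* End F V where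
  toFun g := g.1.1
  map_one' := rfl
  map_mul' _ _ := rfl

instance finite_SUG : Finite (SUG B) :=
  have := Module.finite_of_finite F (M := V)
  Finite.of_injective (fun g : SUG B => (g.1.1 : V → V)) fun _ _ h => Subtype.ext (UG.ext (congrFun h))

theorem su_conj [Nontrivial V] (hB : HF B) {W W' : Submodule F V} {g : SUG B} (h : ∀ x ∈ W, g.1.1 x ∈ W) (k : UG B)
    (hk : W.map (k.1 : V →ₗ[F] V) = W') : ∃ x, x * g * x⁻¹ ∈ stW (suRep B) W' := by
  obtain ⟨x, hx, e⟩ := hB.exists_SUG_map W k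
  exact ⟨⟨x, hx⟩, stW_conj h (e.trans hk)⟩

theorem su_line [Nontrivial V] (hB : HF B) {g : SUG B} {u v : V} {c : F} (hu : B u u ≠ 0) (hv : B v v ≠ 0)
    (h : g.1.1 v = c • v) : ∃ x, x * g * x⁻¹ ∈ stW (suRep B) (F ∙ u) := by
  obtain ⟨a, ha⟩ := hB.exists_smul_norm hv (hB.fix u)
  have h0 := ne_zero_of_b (ha ▸ hu)
  obtain ⟨k, hk⟩ := hB.witt_one h0 (ne_zero_of_b hu) ha
  refine su_conj hB (span_inv (f := (g.1.1 : End F V)) h) k ?_
  rw [← Submodule.span_singleton_smul_eq (IsUnit.mk0 a (left_ne_zero_of_smul h0)), Submodule.map_span, Set.image_singleton]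
  exact congrArg _ (congrArg _ hk)

theorem su_stW_ne (hB : HF B) {W : Submodule F V} {w v : V} (hw : w ∈ W) (hv : v ∉ W) (h0 : B v v = 0) (h : B v w ≠ 0) :
    stW (suRep B) W ≠ ⊤ := fun e => by
  obtain ⟨c, hc, hc'⟩ := hB.exists_skew
  have := (e.ge (Subgroup.mem_top ⟨_, hB.tv_mem_SUG h0 c⟩)) w hw
  rw [show suRep B _ w = _ from hB.tv_apply h0 hc' w, W.add_mem_iff_right hw, W.smul_mem_iff (mul_ne_zero hc h)] at this
  exact hv this

theorem su_line_ne (hB : HF B) (hV : 2 ≤ finrank F V) : ∃ u, B u u ≠ 0 ∧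
    stW (suRep B) (F ∙ u) ≠ ⊤ := by
  obtain ⟨e, f, he, hf, hef⟩ := hB.exists_hyp_pair hV
  obtain ⟨a, ha⟩ := hB.exists_trace_one
  have h1 : B (a • e + f) (a • e + f) = 1 := by simpa [ha, add_comm] using hB.norm_plane he hf hef a 1
  refine ⟨a • e + f, by rw [h1]; exact one_ne_zero, su_stW_ne hB (Submodule.mem_span_singleton_self _) (v := e) (fun k => ?_) he
    (by simp [he, hef])⟩
  obtain ⟨b, hb⟩ := Submodule.mem_span_singleton.1 k
  rw [← hb, b_smul_left, map_smul, h1, smul_eq_mul, mul_one, mul_eq_zero, map_eq_zero, or_self] at he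
  rw [← hb, he, zero_smul, b_zero_left] at hef
  exact zero_ne_one hef

theorem su_center (hB : HF B) (hV : 2 ≤ finrank F V) :
    ∀ z ∈ Subgroup.center (SUG B), ∃ c : F, ∀ v, suRep B z v = c • v := fun z hz => by
  obtain ⟨a, ha⟩ := (hB.mem_center_SUG hV z).1 hz
  exact ⟨a.1, fun v => by rw [← scal_apply (B := B), ← ha]; rfl⟩

theorem covZ_SU4 (hB : HF B) (hF : Nat.card F = q ^ 2) (hV : finrank F V = 4) : CovZ (SUG B) := by
  have := Module.nontrivial_of_finrank_pos (R := F) (M := V) (by omega)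
  obtain ⟨u, hu, hu'⟩ := su_line_ne hB (by omega)
  obtain ⟨U, hU, hU'⟩ := hB.exists_iso_finrank (k := 2) (by omega)
  refine ⟨_, stW (suRep B) U, center_stW (su_center hB (by omega)) _, center_stW (su_center hB (by omega)) _, hu', ?_,
    fun g => ?_⟩
  · obtain ⟨w, hw, h0⟩ := (Submodule.ne_bot_iff U).1 (by rintro rfl; simp at hU')
    obtain ⟨v, h1, h2⟩ := hB.exists_hyp h0 (hU w hw w hw)
    exact su_stW_ne hB hw (fun k => by simp [hU w hw v k] at h1) h2 (by simp [hB.one_symm h1])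
  suffices H : (∃ (v : V) (c : F), B v v ≠ 0 ∧ g.1.1 v = c • v) ∨
      ∃ W, Iso B W ∧ finrank F W = 2 ∧ ∀ x ∈ W, g.1.1 x ∈ W by
    rcases H with ⟨v, c, h1, h2⟩ | ⟨W, h1, h2, h3⟩
    · exact (su_line hB hu h1 h2).imp fun _ => Or.inl
    · obtain ⟨k, hk⟩ := hB.exists_map_iso h1 hU (h2.trans hU'.symm)
      exact (su_conj hB h3 k hk).imp fun _ => Or.inr
  by_cases h : ∃ (v : V) (c : F), v ≠ 0 ∧ g.1.1 v = c • v
  · obtain ⟨v, c, h0, hv⟩ := h
    refine or_iff_not_imp_left.2 fun H => ?_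
    push Not at H
    have h1 : B v v = 0 := by_contra fun k => H v c k hv
    obtain ⟨f, h2, h3⟩ := hB.exists_hyp h0 h1
    obtain ⟨k, hk⟩ := exists_proj hB g.1 h1 h3 h2 hv
    obtain ⟨w, d, h4, h5, h6⟩ := eig_two (hB.res_perp_hyp h1 h3 h2) hF
      (by have := hB.finrank_perp_hyp h1 h3 h2; omega) k c
    obtain ⟨a, ha⟩ := hk w
    rw [h5] at ha
    obtain ⟨h7, h8⟩ := mem_perp_pair.1 w.2
    have h9 : B w w = 0 := h6.elim id fun e => by_contra fun k =>
      H _ d (by simpa [h1, h7, hB.zero_symm h7] using k) (eig_lift (f := (g.1.1 : End F V)) hv ha e)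
    refine ⟨Submodule.span F {v, w.1}, hB.iso_of_self fun x hx => ?_, ?_, fun x hx => ?_⟩
    · obtain ⟨s, t, rfl⟩ := Submodule.mem_span_pair.1 hx
      simp [h1, h7, h9, hB.zero_symm h7]
    · rw [← Matrix.range_cons_cons_empty, finrank_span_eq_card (LinearIndependent.pair_iff.2 fun s t e => ?_)]
      · simp
      have hs : s = 0 := by simpa [hB.one_symm h2, h8] using congrArg (B f) e
      exact ⟨hs, by simpa [hs, h4] using e⟩
    · obtain ⟨s, t, rfl⟩ := Submodule.mem_span_pair.1 hx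
      exact Submodule.mem_span_pair.2 ⟨s * c + t * a, t * d, by simp [hv, ha]; module⟩
  obtain ⟨W, ⟨h1, h2⟩, hW⟩ := exists_minimal_of_wellFoundedLT (fun W : Submodule F V => W ≠ ⊥ ∧ ∀ x ∈ W, g.1.1 x ∈ W)
    ⟨⊤, top_ne_bot, fun _ _ => trivial⟩
  have h3 := (Submodule.finrank_eq_zero (S := W)).not.2 h1
  have h4 : finrank F W ≠ 1 := fun e => h (eig_of_one' (f := (g.1.1 : End F V)) h2 e)
  have h5 : finrank F (perp B W) ≠ 1 := fun e => h (eig_of_one' (f := (g.1.1 : End F V)) (perp_inv h2) e)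
  have h6 := hB.finrank_perp_add W
  by_cases h7 : W ⊓ perp B W = ⊥
  swap
  · have h8 := iso_iff_le_perp.2 ((hW ⟨h7, fun x hx => ⟨h2 x hx.1, perp_inv h2 x hx.2⟩⟩ inf_le_left).trans inf_le_right)
    exact Or.inr ⟨W, h8, by have := hB.two_mul_finrank_le h8; omega, h2⟩
  have := Submodule.nontrivial_iff_ne_bot.2 h1
  obtain ⟨⟨m, hm⟩, -⟩ := irr_unitary ((hB.res_iff W).2 h7) hF (((hB.res_iff W).2 h7).ofLin
    ((g.1.1 : V →ₗ[F] V).restrict h2) fun x y => UG.map_b g.1 _ _) fun X hX => or_iff_not_imp_left.2 fun e =>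
    top_le_iff.1 fun x _ => by
      obtain ⟨y, hy, k⟩ := hW (y := X.map W.subtype) ⟨fun k => e (Submodule.map_injective_of_injective
        W.injective_subtype (k.trans (Submodule.map_bot _).symm)), by rintro _ ⟨y, hy, rfl⟩; exact ⟨_, hX y hy, rfl⟩⟩ (W.map_subtype_le X) x.2
      exact Subtype.ext k ▸ hy
  omega

theorem isConj_of_sim (hB : HF B) (hF : Nat.card F = q ^ 2) {g h : UG B} (k : Sim (g.1 : End F V) (h.1 : End F V)) :
    IsConj g h := by
  have := Fintype.ofFinite F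
  obtain rfl : σ = frob hF := RingHom.ext (hB.apply_pow hF)
  obtain ⟨e, he⟩ := hB.exists_iso (hf_sB hF (finrank F V)) (by simp)
  let ψ := (ugCongr e he).trans (toUG hF _).symm
  have h1 : ∀ g, Sim (g.1 : End F V) (guRep _ F q (ψ g)) := fun g => ⟨e, fun v => by
    simp [ψ, guRep_apply, toUG_symm_mulVec, ugCongr_apply]⟩
  simpa using ψ.symm.toMonoidHom.map_isConj ((gu_isConj_iff (by rwa [← Nat.card_eq_fintype_card]) _ _).2
    ((h1 g).symm.trans (k.trans (h1 h))))

theorem exists_unitary_model [CharP F 3] (hσ : Inv σ) (hF : Nat.card F = q ^ 2) : ∃ (E : Type) (_ : Field E) (_ : Algebra F E)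
    (_ : Finite E) (C : E →ₛₗ[σ] E →ₗ[F] F) (φ : E ≃ₐ[F] E), finrank F E = 3 ∧ HF C ∧
    (∀ μ : E, μ ^ (q ^ 3 + 1) = 1 → ∀ x y, C (μ * x) (μ * y) = C x y) ∧ (∀ x y, C (φ x) (φ y) = C x y) ∧
    (φ.toLinearMap - 1) ^ 3 = 0 ∧ (φ.toLinearMap - 1) ^ 2 ≠ 0 := by
  have := Fact.mk Nat.prime_three
  let E := FiniteField.Extension F 3 3
  have hE : Nat.card E = (q ^ 3) ^ 2 := by rw [FiniteField.natCard_extension, hF]; ring
  have h3 : finrank F E = 3 := FiniteField.finrank_extension F 3 3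
  have : CharP E 3 := charP_of_injective_algebraMap (algebraMap F E).injective 3
  have t1 : ∀ a, frob hE (algebraMap F E a) = algebraMap F E (σ a) := fun a => by
    rw [frob_apply, ← map_pow, hσ.apply_pow hF, pow_succ, pow_mul, ← hF, pow_card_eq]
  have t2 : ∀ z, σ (Algebra.trace F E z) = Algebra.trace F E (frob hE z) := fun z => (algebraMap F E).injective (by
    simp only [← t1, FiniteField.algebraMap_trace_eq_sum_pow, map_sum, map_pow])
  let φ := FiniteField.Extension.frob F 3 3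
  have hφ : ∀ x : E, φ x = x ^ Nat.card F := fun x => FiniteField.Extension.frob_apply F 3 3
  have h1 : ∀ x : E, φ (φ (φ x)) = x := fun x => by
    simp only [hφ, ← pow_mul, ← pow_three', ← FiniteField.natCard_extension F 3 3]
    exact pow_card_eq x
  have three : (3 : E) = 0 := CharP.cast_eq_zero E 3
  refine ⟨E, inferInstance, inferInstance, inferInstance, LinearMap.mk₂'ₛₗ σ (RingHom.id F)
    (fun x y => Algebra.trace F E (frob hE x * y)) (fun _ _ _ => by simp [add_mul]) (fun c x y => ?_)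
    (fun _ _ _ => by simp [mul_add]) (fun c x y => by simp), φ, h3, ⟨hσ, fun x y => ?_, fun x hx => ?_⟩,
    fun μ h x y => ?_, fun x y => ?_, LinearMap.ext fun x => ?_, fun e => Algebra.trace_ne_zero F E
      (LinearMap.ext fun x => (algebraMap F E).injective ?_)⟩
  · rw [Algebra.smul_def, map_mul (frob hE), t1, mul_assoc, ← Algebra.smul_def, map_smul]
  · simp [t2, (inv_frob hE).invol, mul_comm]
  · exact (map_eq_zero (frob hE)).1 ((traceForm_nondegenerate F E).1 _ hx)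
  · simp only [LinearMap.mk₂'ₛₗ_apply, map_mul, mul_mul_mul_comm]
    rw [frob_apply, ← pow_succ, h, one_mul]
  · simp only [LinearMap.mk₂'ₛₗ_apply, frob_apply, ← map_pow, ← map_mul, Algebra.trace_eq_of_algEquiv]
  · simp only [pow_succ, pow_zero, End.mul_apply, LinearMap.sub_apply, End.one_apply, AlgEquiv.toLinearMap_apply,
      map_sub, h1, LinearMap.zero_apply]
    linear_combination (φ x - φ (φ x)) * three
  · have := LinearMap.congr_fun e x
    simp only [pow_succ, pow_zero, End.mul_apply, LinearMap.sub_apply, End.one_apply, AlgEquiv.toLinearMap_apply,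
      map_sub, LinearMap.zero_apply] at this
    simp only [hφ, ← pow_mul] at this
    simp only [FiniteField.algebraMap_trace_eq_sum_pow, h3, Finset.sum_range_succ, LinearMap.zero_apply, map_zero,
      pow_succ, pow_zero, one_mul, Finset.range_zero, Finset.sum_empty]
    linear_combination this + x ^ Nat.card F * three

theorem reg_of_iso (hB : HF B) (hV : finrank F V = 3) (g : UG B) {v : V} {c : F} (h0 : v ≠ 0) (hv : g.1 v = c • v)
    (H : ∀ (v : V) (c : F), B v v ≠ 0 → g.1 v ≠ c • v) : σ c * c = 1 ∧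
    ((g.1 : End F V) - algebraMap F _ c) ^ 3 = 0 ∧ ((g.1 : End F V) - algebraMap F _ c) ^ 2 ≠ 0 := by
  have h1 : B v v = 0 := by_contra fun k => H v c k hv
  obtain ⟨f, h2, h3⟩ := hB.exists_hyp h0 h1
  obtain ⟨k, hk⟩ := exists_proj hB g h1 h3 h2 hv
  have h4 : finrank F (perp B (Submodule.span F {v, f})) = 1 := by have := hB.finrank_perp_hyp h1 h3 h2; omega
  have := Module.nontrivial_of_finrank_pos (R := F) (M := perp B (Submodule.span F {v, f})) (by omega)
  obtain ⟨w, hw⟩ := (hB.res_perp_hyp h1 h3 h2).exists_nonisotropic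
  have h5 := (finrank_eq_one_iff_of_nonzero' w (ne_zero_of_b hw)).1 h4
  obtain ⟨d, hd⟩ := h5 (k.1 w)
  obtain ⟨a, ha⟩ := hk w
  rw [← hd] at ha
  have h7 := (mem_perp_pair.1 w.2).1
  obtain rfl : d = c := by_contra fun e =>
    H _ d (by simpa [h1, h7, hB.zero_symm h7] using hw) (eig_lift (f := (g.1 : End F V)) hv ha e)
  have h8 : σ d * d = 1 := mul_right_cancel₀ hw (by
    simpa [← hd, mul_assoc, mul_left_comm d] using UG.map_b k w w)
  set N := (g.1 : End F V) - algebraMap F _ d with hN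
  have e0 : ∀ x, N x = g.1 x - d • x := fun x => rfl
  have e1 : ∀ x, B v (N x) = 0 := fun x => by
    have := UG.map_b g v x
    rw [hv, b_smul_left] at this
    rw [e0, map_sub, map_smul, ← this, smul_eq_mul, ← mul_assoc, mul_comm d, h8, one_mul, sub_self]
  have e2 : ∀ x, B v x = 0 → N (N x) = 0 := fun x hx => by
    obtain ⟨b, hb⟩ := h5 ⟨_, hB.hyp_proj_mem h1 h3 h2 x⟩
    have : x = b • w.1 + B f x • v := by simpa [hx, eq_sub_iff_add_eq, eq_comm] using congrArg Subtype.val hb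
    rw [this]
    simp [e0, hv, ha]
    module
  refine ⟨h8, LinearMap.ext fun x => e2 _ (e1 x), fun e => ?_⟩
  have k1 := hB.two_mul_finrank_le (hB.iso_of_self (W := LinearMap.ker N) fun x hx => by_contra fun k =>
    H x d k (sub_eq_zero.1 hx))
  have k2 := N.finrank_range_add_finrank_ker
  have k3 := Submodule.finrank_mono (LinearMap.range_le_ker_iff.2 (show N ∘ₗ N = 0 from (pow_two N).symm.trans e))
  omega

theorem covZ_SU3 [CharP F 3] (hB : HF B) (hF : Nat.card F = q ^ 2) (hV : finrank F V = 3) : CovZ (SUG B) := by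
  have := Fact.mk Nat.prime_three
  have := Module.nontrivial_of_finrank_pos (R := F) (M := V) (by omega)
  obtain ⟨u, hu, hu'⟩ := su_line_ne hB (by omega)
  obtain ⟨E, _, _, _, C, φ, hE, hC, h1, h2, h3, h4⟩ := exists_unitary_model hB.toInv hF
  have := Module.Finite.of_finite (R := F) (M := E)
  obtain ⟨e, he⟩ := hC.exists_iso hB (hE.trans hV.symm)
  refine ⟨_, stE (suRep B) (Set.range (scl E e)), center_stW (su_center hB (by omega)) _, center_stE (su_center hB (by omega)) _,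
    hu', fun k => ?_, fun g => by_contra fun hn => hn ?_⟩
  · obtain ⟨v, f, k1, -, k2⟩ := hB.exists_hyp_pair (by omega)
    obtain ⟨c, hc, hc'⟩ := hB.exists_skew
    exact not_mem_stE (ρ := suRep B) _ (by omega) hV.ge (g := ⟨_, hB.tv_mem_SUG k1 c⟩) (l := c • B v) (y := f)
      (ne_zero_of_b (k2 ▸ one_ne_zero)) (by simp [k2, hc]) (hB.tv_apply k1 hc') (k.ge trivial)
  have H : ∀ (v : V) (c : F), B v v ≠ 0 → g.1.1 v ≠ c • v := fun v c k1 k2 =>
    hn ((su_line hB hu k1 k2).imp fun _ => Or.inl)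
  suffices k : ∃ m : End F E, (∀ x y, C (m x) (m y) = C x y) ∧ (∀ a, ∃ b, ∀ x, m (a * x) = b * m x) ∧
      Sim (g.1.1 : End F V) m by
    obtain ⟨m, k1, k2, k3⟩ := k
    obtain ⟨x, hx⟩ := isConj_iff.1 (isConj_of_sim hB hF (g := g.1) (h := ugCongr e he (hC.ofLin m k1))
      (k3.trans ⟨e, fun v => by simp [ugCongr_apply]⟩))
    obtain ⟨a, ha⟩ := Finite.injective_iff_surjective.1 (show Function.Injective fun a : normOne σ => a ^ 3 from
      fun a b k => Subtype.ext (Units.ext (frobenius_inj F 3 (congrArg (fun a : normOne σ => (a.1 : F)) k))))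
      ⟨detU B x, hB.map_detU_stab ⊥ ▸ ⟨x, mem_stab_of_le (by simp), rfl⟩⟩⁻¹
    refine ⟨⟨scal B a * x, (MonoidHom.mem_ker).2 ?_⟩, Or.inr (mem_stE (fun v => ?_) k2)⟩
    · rw [map_mul, detU_scal, hV, show a.1 ^ 3 = _ from congrArg Subtype.val ha]
      simp
    change (scal B a * x * g.1 * (scal B a * x)⁻¹).1 v = _
    rw [mul_inv_rev, ← mul_assoc, mul_assoc (scal B a), mul_assoc (scal B a), mul_assoc (scal B a), hx, ← mul_assoc,
      ← scal_comm, mul_inv_cancel_right]
    rfl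
  by_cases h : ∃ (v : V) (c : F), v ≠ 0 ∧ g.1.1 v = c • v
  · obtain ⟨v, c, h0, hv⟩ := h
    obtain ⟨k1, k2, k3⟩ := reg_of_iso hB hV g.1 h0 hv H
    have hc : c ≠ 0 := right_ne_zero_of_mul_eq_one k1
    refine ⟨c • φ.toLinearMap, fun x y => by simp [h2, ← mul_assoc, mul_comm c (σ c), k1],
      fun a => ⟨φ a, fun x => by simp⟩, ?_⟩
    have := (sim_of_reg (g := c • (φ.toLinearMap - 1)) hV hE ⟨_, k2⟩ ⟨3, by rw [_root_.smul_pow, h3, smul_zero]⟩ k3
      (by rw [_root_.smul_pow]; exact smul_ne_zero (pow_ne_zero _ hc) h4)).aeval (X + Polynomial.C c)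
    rwa [map_add, map_add, aeval_X, aeval_X, aeval_C, aeval_C, sub_add_cancel, smul_sub,
      Algebra.algebraMap_eq_smul_one, sub_add_cancel] at this
  obtain ⟨-, p, k1, k2, k3, k4, k5⟩ := irr_unitary hB hF g.1 fun W hW => by
    by_contra! k
    have k1 := Submodule.finrank_lt k.2
    have k2 := (Submodule.finrank_eq_zero (S := W)).not.2 k.1
    have k3 : finrank F W ≠ 1 := fun e => h (eig_of_one' (f := (g.1.1 : End F V)) hW e)
    have k4 : finrank F (perp B W) ≠ 1 := fun e => h (eig_of_one' (f := (g.1.1 : End F V)) (perp_inv hW) e)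
    have k5 := hB.finrank_perp_add W
    omega
  obtain ⟨μ, hμ⟩ := exists_root (E := E) k1 k2 (by rw [k4, hE, hV])
  refine ⟨LinearMap.mulLeft F μ, h1 μ ?_, fun a => ⟨a, fun x => mul_left_comm _ _ _⟩,
    sim_of_irr k1 k2 k3 (by rw [aeval_mulLeft, hμ]; simp) (hV.trans hE.symm)⟩
  simpa [hV, sub_eq_zero] using aeval_eq_zero_of_dvd_aeval_eq_zero k5 hμ

theorem cov_PSU4 (hF : Nat.card F = q ^ 2) : Cov (PSU 4 F q) :=
  (covZ_SU4 (hf_sB hF 4) hF (by simp)).quot (toSUG hF 4)

theorem cov_PSU3 [CharP F 3] (hF : Nat.card F = q ^ 2) : Cov (PSU 3 F q) :=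
  (covZ_SU3 (hf_sB hF 3) hF (by simp)).quot (toSUG hF 3)

end Cfsg.Agent.Cvr
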