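import Mathlib
import Cfsg.Agent.Cov.SU

/-! Cyclic nondegenerate subspaces for symplectic isometries. -/

set_option autoImplicit false
set_option linter.unusedSectionVars false

namespace Cfsg.Agent.Cvr

open Module Polynomial Cfsg.Agent.Conj Cfsg.Agent.UGL.Cl

variable {F : Type*} [Field F] {V : Type*} [AddCommGroup V] [Module F V] [FiniteDimensional F V]
  {B : LinearMap.BilinForm F V} {g g' : End F V}

/-- the standard element with prescribed trace -/
noncomputable def cmp (f : F[X]) : End F (AdjoinRoot f × AdjoinRoot f) :=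
  (-LinearMap.snd F _ _).prod (LinearMap.fst F _ _ + LinearMap.mulLeft F (AdjoinRoot.root f) ∘ₗ LinearMap.snd F _ _)

theorem exists_mul_eq {p r : F[X]} (hp : Irreducible p) {k : ℕ} (h : ¬ p ^ (k + 1) ∣ r) :
    ∃ d e, p ^ k = r * d + p ^ (k + 1) * e := by
  classical
  obtain ⟨i, hi, u, hu⟩ := (dvd_prime_pow hp.prime _).1 (EuclideanDomain.gcd_dvd_right r (p ^ (k + 1)))
  obtain ⟨j, rfl⟩ := Nat.exists_eq_add_of_le (show i ≤ k from Nat.lt_succ_iff.1 (hi.lt_of_ne fun e => h (by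
    rw [← e]; exact (Associated.dvd' ⟨u, hu⟩).trans (EuclideanDomain.gcd_dvd_left _ _))))
  refine ⟨EuclideanDomain.gcdA r (p ^ (i + j + 1)) * u * p ^ j, EuclideanDomain.gcdB r (p ^ (i + j + 1)) * u * p ^ j, ?_⟩
  rw [EuclideanDomain.gcd_eq_gcd_ab] at hu
  linear_combination -p ^ j * hu

theorem adj_inv (hg : ∀ x y, B (g x) (g y) = B x y) (hg' : g * g' = 1) (x y : V) : B (g x) y = B x (g' y) := by
  rw [← hg x, ← End.mul_apply, hg', End.one_apply]

theorem adj_aeval (hg : ∀ x y, B (g x) (g y) = B x y) (hg' : g * g' = 1) (r : F[X]) (x y : V) :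
    B (aeval (g + g') r x) y = B x (aeval (g + g') r y) := by
  induction r using Polynomial.induction_on generalizing x y with
  | C a => simp
  | add r s k1 k2 => simp [k1, k2]
  | monomial n a k =>
    rw [pow_succ, ← mul_assoc, map_mul, End.mul_apply, k, End.mul_apply, aeval_comm, aeval_X, LinearMap.add_apply, map_add,
      LinearMap.add_apply, adj_inv hg hg', ← hg (g' x), ← End.mul_apply g g', hg', End.one_apply, LinearMap.add_apply,
      map_add, add_comm]

theorem comm_aeval (hg' : g * g' = 1) (r : F[X]) (x : V) : g (aeval (g + g') r x) = aeval (g + g') r (g x) :=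
  aeval_intertwine g (fun v => by
    rw [LinearMap.add_apply, map_add, LinearMap.add_apply, ← End.mul_apply g g', ← End.mul_apply g' g, hg',
      mul_eq_one_comm.1 hg']) r x

theorem exists_theta (h2 : (2 : F) ≠ 0) (hB : EF B (-1)) (hg : ∀ x y, B (g x) (g y) = B x y) (hg' : g * g' = 1)
    {p : F[X]} (hp : Irreducible p) (hm : p.Monic) {k : ℕ} (h1 : aeval (g + g') (p ^ (k + 1)) = 0)
    (h : aeval (g + g') (p ^ k) * (g - g') ≠ 0) : ∃ θ : _ →ₗ[F] V, (∀ x, θ (cmp (p ^ (k + 1)) x) = g (θ x)) ∧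
      ∀ x, (∀ y, B (θ x) (θ y) = 0) → x = 0 := by
  have hA := hB.alt_of_neg h2
  have sa := adj_aeval hg hg'
  obtain ⟨v, hv⟩ : ∃ v, B (aeval (g + g') (p ^ k) v) (g v) ≠ 0 := by
    by_contra! H
    refine h (LinearMap.ext fun y => hB.ext_right fun x => ?_)
    have := H (x + y)
    simp only [map_add, LinearMap.add_apply, H] at this
    rw [sa _ y, ← comm_aeval hg', ← hA.neg_eq _ y, adj_inv hg hg'] at this
    rw [End.mul_apply, ← sa, LinearMap.sub_apply, map_sub, LinearMap.zero_apply, map_zero]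
    linear_combination this
  obtain ⟨L, hL⟩ := exists_lift_cyc (hm.pow (k + 1)) (g + g') (w := v) (by rw [h1]; rfl)
  have k1 : ∀ a b, B (L a) (L b) = 0 := fun a b => by
    obtain ⟨r, rfl⟩ := AdjoinRoot.mk_surjective a
    obtain ⟨s, rfl⟩ := AdjoinRoot.mk_surjective b
    rw [hL, hL]
    refine mul_left_cancel₀ h2 ?_
    have := hA.neg_eq (aeval (g + g') r v) (aeval (g + g') s v)
    rw [← sa r (aeval (g + g') s v), aeval_comm, sa s] at this
    linear_combination -this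
  have k2 : ∀ a, (∀ b, B (L a) (g (L b)) = 0) → a = 0 := fun a ha => by
    obtain ⟨r, rfl⟩ := AdjoinRoot.mk_surjective a
    by_contra e
    obtain ⟨d, e, k⟩ := exists_mul_eq hp (mt AdjoinRoot.mk_eq_zero.2 e)
    have := ha (AdjoinRoot.mk _ d)
    rw [hL, hL, comm_aeval hg', ← sa, ← End.mul_apply, ← map_mul] at this
    rw [k, map_add, map_mul _ (p ^ (_ + 1)), h1, zero_mul, add_zero, mul_comm] at hv
    exact hv this
  have k3 : ∀ a b, B (L a) (g (L b)) = B (L b) (g (L a)) := fun a b => by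
    obtain ⟨r, rfl⟩ := AdjoinRoot.mk_surjective a
    obtain ⟨s, rfl⟩ := AdjoinRoot.mk_surjective b
    rw [hL, hL, comm_aeval hg', comm_aeval hg', ← sa, ← sa, aeval_comm]
  refine ⟨L ∘ₗ LinearMap.fst F _ _ + g ∘ₗ L ∘ₗ LinearMap.snd F _ _, fun ⟨a, b⟩ => ?_, fun ⟨a, b⟩ hx => Prod.ext
    (k2 a fun c => by simpa [hg, k1] using hx (0, c)) (k2 b fun c => ?_)⟩
  · obtain ⟨r, rfl⟩ := AdjoinRoot.mk_surjective b
    have := hL (X * r)
    rw [map_mul, AdjoinRoot.mk_X, map_mul (aeval _), aeval_X, End.mul_apply, ← hL] at this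
    simp [cmp, this, ← End.mul_apply g g', hg']
    abel
  · have := hx (c, 0)
    rw [k3, ← hA.neg_eq]
    simpa [k1] using this

theorem finrank_cmp {p : F[X]} (hm : p.Monic) (k : ℕ) :
    finrank F (AdjoinRoot (p ^ k) × AdjoinRoot (p ^ k)) = 2 * (k * p.natDegree) := by
  have := (hm.pow k).finite_adjoinRoot
  rw [finrank_prod, finrank_adjoinRoot (hm.pow k), hm.natDegree_pow, two_mul]

theorem sim_cmp (h2 : (2 : F) ≠ 0) (hB : EF B (-1)) (hg : ∀ x y, B (g x) (g y) = B x y) (hg' : g * g' = 1)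
    {p : F[X]} (hp : Irreducible p) (hm : p.Monic) {k : ℕ} (h1 : aeval (g + g') (p ^ (k + 1)) = 0)
    (h : aeval (g + g') (p ^ k) * (g - g') ≠ 0) (hd : finrank F V = 2 * ((k + 1) * p.natDegree)) :
    Sim (cmp (p ^ (k + 1))) g := by
  have := (hm.pow (k + 1)).finite_adjoinRoot
  obtain ⟨θ, k1, k2⟩ := exists_theta h2 hB hg hg' hp hm h1 h
  have k3 := (injective_iff_map_eq_zero θ).2 fun x hx => k2 x (by simp [hx])
  exact ⟨LinearEquiv.ofBijective θ ⟨k3, (LinearMap.injective_iff_surjective_of_finrank_eq_finrank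
    ((finrank_cmp hm _).trans hd.symm)).1 k3⟩, k1⟩

/-- no proper nondegenerate invariant subspace -/
def Indec (B : LinearMap.BilinForm F V) (g : End F V) : Prop := ∀ W : Submodule F V, (∀ x ∈ W, g x ∈ W) →
  (∀ x ∈ W, (∀ y ∈ W, B x y = 0) → x = 0) → W = ⊥ ∨ W = ⊤

theorem Indec.dim (H : Indec B g) (h2 : (2 : F) ≠ 0) (hB : EF B (-1)) (hg : ∀ x y, B (g x) (g y) = B x y)
    (hg' : g * g' = 1) {p : F[X]} (hp : Irreducible p) (hm : p.Monic) {k : ℕ} (h1 : aeval (g + g') (p ^ (k + 1)) = 0)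
    (h : aeval (g + g') (p ^ k) * (g - g') ≠ 0) : finrank F V = 2 * ((k + 1) * p.natDegree) := by
  have := (hm.pow (k + 1)).finite_adjoinRoot
  obtain ⟨θ, k1, k2⟩ := exists_theta h2 hB hg hg' hp hm h1 h
  have k3 := LinearMap.finrank_range_of_inj ((injective_iff_map_eq_zero θ).2 fun x hx => k2 x (by simp [hx]))
  rw [finrank_cmp hm] at k3
  rcases H (LinearMap.range θ) (by rintro _ ⟨x, rfl⟩; exact ⟨_, k1 x⟩) (by
    rintro _ ⟨x, rfl⟩ hx; rw [k2 x fun y => hx _ ⟨y, rfl⟩, map_zero]) with e | e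
  · have := hp.natDegree_pos
    rw [e, finrank_bot] at k3
    exact absurd k3 (by positivity : 0 < _).ne
  · rwa [e, finrank_top] at k3

theorem Indec.exists_irr [Nontrivial V] (H : Indec B g) (hg : ∀ x y, B (g x) (g y) = B x y) (hB : EF B (-1))
    (hg' : g * g' = 1) : ∃ (p : F[X]) (k : ℕ), Irreducible p ∧ p.Monic ∧ aeval (g + g') (p ^ (k + 1)) = 0 ∧
      aeval (g + g') (p ^ k) ≠ 0 := by
  have hi := Algebra.IsIntegral.isIntegral (R := F) (g + g')
  obtain ⟨p, hm, hp, r, hr⟩ := exists_monic_irreducible_factor _ (minpoly.not_isUnit F (g + g'))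
  obtain ⟨n, hn⟩ := Filter.eventually_atTop.1 (LinearMap.eventually_isCompl_ker_pow_range_pow (aeval (g + g') p))
  replace hn := hn (n + 1) n.le_succ
  rw [← map_pow] at hn
  have h1 := (H (LinearMap.ker (aeval (g + g') (p ^ (n + 1)))) (fun x hx => by
    rw [LinearMap.mem_ker, ← comm_aeval hg', LinearMap.mem_ker.1 hx, map_zero]) fun x hx k => hB.nd x fun y => by
      obtain ⟨a, ha, _, ⟨b, rfl⟩, rfl⟩ := Submodule.mem_sup.1 (hn.sup_eq_top ▸ Submodule.mem_top (x := y))
      rw [map_add, k a ha, ← adj_aeval hg hg', LinearMap.mem_ker.1 hx]; simp).resolve_left fun e =>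
    minpoly.aeval_ne_zero_of_dvdNotUnit_minpoly hi (hm.of_mul_monic_left (hr ▸ minpoly.monic hi))
      ⟨by rintro rfl; exact minpoly.ne_zero hi (by simpa using hr), p, hp.not_isUnit, hr.trans (mul_comm _ _)⟩
      (LinearMap.ext fun x => LinearMap.ker_eq_bot'.1 e _ (by
        rw [← End.mul_apply, ← map_mul, pow_succ, mul_assoc, ← hr, map_mul, minpoly.aeval, mul_zero]; rfl))
  obtain ⟨k, k1, k2⟩ := Nat.exists_not_and_succ_of_not_zero_of_exists (p := fun k => aeval (g + g') (p ^ k) = 0)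
    (by simp) ⟨_, LinearMap.ker_eq_top.1 h1⟩
  exact ⟨p, k, hp, hm, k2, k1⟩

theorem lay_le {N : End F V} {M i : ℕ} (h : N ^ M = 0) (hi : i < M) (s : Finset (Fin M)) :
    ∑ j ∈ s, (j + 1 : ℕ) * finrank F (Lay N j) ≤ finrank F V :=
  sum_finrank_Lay h ▸ Finset.sum_le_sum_of_subset (Finset.subset_univ s)

theorem lay_top {N : End F V} {i : ℕ} (h : N ^ (i + 1) = 0) (h' : N ^ i ≠ 0) : 0 < finrank F (Lay N i) ∧
    (i + 1) * finrank F (Lay N i) ≤ finrank F V := by
  refine ⟨?_, by simpa using lay_le h i.lt_succ_self {Fin.last i}⟩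
  obtain ⟨x, hx⟩ := DFunLike.ne_iff.1 h'
  exact finrank_pos_iff_exists_ne_zero.2 ⟨Submodule.Quotient.mk ⟨x, by simp [h]⟩, fun e => by
    obtain ⟨y, hy⟩ := mem_Rr.1 ((Submodule.Quotient.mk_eq_zero _).1 e)
    exact hx (by simpa [h] using hy.symm)⟩

theorem lay_zero {N : End F V} {i j : ℕ} (h : N ^ (i + 1) = 0) (hi : finrank F V ≤ (i + 1) * finrank F (Lay N i))
    (hj : j ≠ i) : finrank F (Lay N j) = 0 := by
  rcases lt_or_gt_of_ne hj with k | k
  · have := lay_le h i.lt_succ_self {Fin.last i, ⟨j, by omega⟩}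
    rw [Finset.sum_pair (by simp [Fin.ext_iff]; omega)] at this
    simp only [Fin.val_last] at this
    exact (Nat.mul_eq_zero.1 (show (j + 1) * _ = 0 by omega)).resolve_left j.succ_ne_zero
  · exact finrank_Lay_eq_zero h k

theorem tri_of_top [Finite F] {W : Type*} [AddCommGroup W] [Module F W] [FiniteDimensional F W]
    {B' : LinearMap.BilinForm F W} (h2 : (2 : F) ≠ 0) (hB : EF B (-1)) (hB' : EF B' (-1)) {N : End F V} {N' : End F W}
    (hu : UIso B N) (hu' : UIso B' N') {i : ℕ} (h : N ^ (i + 1) = 0) (h' : N' ^ (i + 1) = 0)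
    (hi : finrank F V ≤ (i + 1) * finrank F (Lay N i)) (hi' : finrank F W ≤ (i + 1) * finrank F (Lay N' i))
    (H : ∃ e : Lay N i ≃ₗ[F] Lay N' i, ∀ x y, beta hu' i (e x) (e y) = beta hu i x y) : Tri B N B' N' := by
  refine tri_of_beta h2 hB hB' hu hu' ⟨_, h⟩ ⟨_, h'⟩ fun j => ?_
  by_cases e : j = i
  · exact e ▸ H
  have := finrank_zero_iff.1 (lay_zero h hi e)
  exact ⟨LinearEquiv.ofFinrankEq _ _ ((lay_zero h hi e).trans (lay_zero h' hi' e).symm), fun x y => by
    simp [Subsingleton.elim x 0]⟩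

theorem iso_of_one {W : Type*} [AddCommGroup W] [Module F W] {B' : LinearMap.BilinForm F W} (hV : finrank F V = 1)
    (hW : finrank F W = 1) {x : V} {y : W} (hx : x ≠ 0) (hy : y ≠ 0) (h : B' y y = B x x) :
    ∃ e : V ≃ₗ[F] W, ∀ a b, B' (e a) (e b) = B a b :=
  Orth.exists_iso_of_basis (FiniteDimensional.basisSingleton Unit hV x hx) (FiniteDimensional.basisSingleton Unit hW y hy)
    fun _ _ => by simpa using h

theorem Indec.uni (H : Indec B g) (h2 : (2 : F) ≠ 0) (hB : EF B (-1)) (hg : ∀ x y, B (g x) (g y) = B x y)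
    (hg' : g * g' = 1) {k : ℕ} (h1 : (g - 1) ^ (2 * k + 1 + 1) = 0) (h : (g - 1) ^ (2 * k + 1) ≠ 0) :
    finrank F V = 2 * (k + 1) := by
  have hg'' := mul_eq_one_comm.1 hg'
  have hc : Commute g' (g - 1) := (show Commute g' g from hg''.trans hg'.symm).sub_right (Commute.one_right _)
  have e1 : ∀ n, aeval (g + g') ((X - C 2 : F[X]) ^ n) = g' ^ n * (g - 1) ^ (2 * n) := fun n => by
    rw [map_pow, pow_mul, ← (hc.pow_right 2).mul_pow, map_sub, aeval_X, aeval_C, map_ofNat]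
    congr 1
    simp only [sq, mul_sub, sub_mul, ← mul_assoc, hg'', mul_one, one_mul]
    rw [← one_add_one_eq_two]; abel
  have e2 : g - g' = g' * ((g - 1) * (g - 1 + 2)) := by
    simp only [mul_add, mul_sub, sub_mul, ← mul_assoc, hg'', mul_one, one_mul, mul_two]
    abel
  simpa using H.dim h2 hB hg hg' (irreducible_X_sub_C 2) (monic_X_sub_C 2) (k := k) (by rw [e1, mul_add, h1, mul_zero])
    fun e => h (by
      rw [e1, e2, mul_assoc, ← mul_assoc _ g', ← (hc.pow_right _).eq, mul_assoc g', ← mul_assoc, ← pow_succ,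
        ((IsUnit.of_mul_eq_one _ hg'').pow _).mul_right_eq_zero, ← mul_assoc, ← pow_succ, mul_add, ← pow_succ, h1,
        zero_add, mul_two, ← two_smul F] at e
      exact (smul_eq_zero.1 e).resolve_left h2)

end Cfsg.Agent.Cvr
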