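import Mathlib
import Cfsg.Agent.Cov.Theta

/-! The group `Sp₆(3^a)` is covered by the conjugates of two proper subgroups. -/

set_option autoImplicit false
set_option linter.unusedSectionVars false

namespace Cfsg.Agent.Cvr

open Module Polynomial Cfsg.Agent.Conj Cfsg.Agent.UGL.Cl Cfsg.Agent.Classical.SpWitt

variable {F : Type*} [Field F] [Finite F] {V : Type*} [AddCommGroup V] [Module F V] [FiniteDimensional F V]
  {B : LinearMap.BilinForm F V} {g g' : End F V} {E : Type*} [Field E] [Algebra F E] [Finite E]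

/-- a semilinear map of the plane -/
def mE (ψ : E ≃ₐ[F] E) (a b c d : E) : End F (E × E) where
  toFun x := (a * ψ x.1 + b * ψ x.2, c * ψ x.1 + d * ψ x.2)
  map_add' x y := by simp; constructor <;> ring
  map_smul' s x := by simp

theorem mE_apply (ψ : E ≃ₐ[F] E) (a b c d : E) (x : E × E) :
    mE ψ a b c d x = (a * ψ x.1 + b * ψ x.2, c * ψ x.1 + d * ψ x.2) := rfl

variable (F E) in
/-- the trace of the determinant form -/
noncomputable def bE : LinearMap.BilinForm F (E × E) :=
  LinearMap.mk₂ F (fun x y => Algebra.trace F E (x.1 * y.2 - x.2 * y.1))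
    (fun _ _ _ => by rw [← map_add]; congr 1; simp; ring) (fun _ _ _ => by simp [mul_sub])
    (fun _ _ _ => by rw [← map_add]; congr 1; simp; ring) (fun _ _ _ => by simp [mul_sub])

theorem bE_apply (x y : E × E) : bE F E x y = Algebra.trace F E (x.1 * y.2 - x.2 * y.1) := rfl

theorem ef_bE : EF (bE F E) (-1) := ⟨fun _ => rfl, Or.inr rfl, fun x y => by simp [bE_apply, mul_comm], fun x h =>
  Prod.ext ((traceForm_nondegenerate F E).1 _ fun y => by simpa [bE_apply] using h (0, y))
    ((traceForm_nondegenerate F E).1 _ fun y => by simpa [bE_apply] using h (y, 0))⟩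

theorem bE_mE (ψ : E ≃ₐ[F] E) {a b c d : E} (h : a * d - b * c = 1) (x y : E × E) :
    bE F E (mE ψ a b c d x) (mE ψ a b c d y) = bE F E x y := by
  rw [bE_apply, bE_apply, ← Algebra.trace_eq_of_algEquiv ψ (x.1 * _ - _)]
  congr 1
  simp only [mE_apply, map_sub, map_mul]
  linear_combination (ψ x.1 * ψ y.2 - ψ x.2 * ψ y.1) * h

variable (E) in
/-- conjugate into the extension field subgroup -/
def Gd (B : LinearMap.BilinForm F V) (g : End F V) : Prop :=
  ∃ m : End F (E × E), (∀ a : E, ∃ b : E, ∀ x, m (a • x) = b • m x) ∧ Tri B g (bE F E) m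

theorem gd_mE {ψ : E ≃ₐ[F] E} {a b c d : E} (h : Tri B g (bE F E) (mE ψ a b c d)) : Gd E B g :=
  ⟨_, fun s => ⟨ψ s, fun x => by simp [mE_apply]; constructor <;> ring⟩, h⟩

/-- a cubic extension in characteristic three -/
structure Cub (φ : E ≃ₐ[F] E) : Prop where
  three : (3 : E) = 0
  dim : finrank F E = 3
  ord : ∀ x, φ (φ (φ x)) = x
  tr : ∀ x, algebraMap F E (Algebra.trace F E x) = x + φ x + φ (φ x)

variable {φ : E ≃ₐ[F] E}

theorem Cub.two (h : Cub φ) : (2 : F) ≠ 0 := fun e => one_ne_zero (α := E) (by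
  have := congrArg (algebraMap F E) e
  rw [map_ofNat, map_zero] at this
  linear_combination h.three - this)

theorem Cub.dim' (h : Cub φ) : finrank F (E × E) = 6 := by
  have := Module.Finite.of_finite (R := F) (M := E)
  rw [finrank_prod, h.dim]

theorem exists_tr_one : ∃ a : E, Algebra.trace F E a = 1 := Algebra.trace_surjective F E 1

theorem Cub.gd_fpf (h : Cub φ) (H : Indec B g) (hB : EF B (-1)) (hV : finrank F V = 6)
    (hg : ∀ x y, B (g x) (g y) = B x y) (hg' : g * g' = 1) (h1 : ∀ x, g x = x → x = 0) (h2 : ∀ x, g x = -x → x = 0) :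
    Gd E B g := by
  have := Module.Finite.of_finite (R := F) (M := E)
  have := Module.nontrivial_of_finrank_pos (R := F) (M := V) (by omega)
  obtain ⟨p, k, hp, hm, k1, k2⟩ := H.exists_irr hg hB hg'
  have a1 : ∀ x, g (g' x) = x := fun x => LinearMap.congr_fun hg' x
  have a2 : ∀ x, g' (g x) = x := fun x => LinearMap.congr_fun (mul_eq_one_comm.1 hg') x
  have a3 : ∀ x, g x = g' x → x = 0 := fun x e => h2 x (eq_neg_of_add_eq_zero_left (h1 _ (by
    rw [map_add, add_comm, e, a1, ← e])))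
  have hu : IsUnit (g - g') := isUnit_of_inj ((injective_iff_map_eq_zero _).2 fun x hx => a3 x (sub_eq_zero.1 hx))
  have k3 := mt hu.mul_left_eq_zero.1 k2
  have k4 := H.dim h.two hB hg hg' hp hm k1 k3
  suffices ∃ (ψ : E ≃ₐ[F] E) (z : E) (m' : End F (E × E)), mE ψ 0 (-1) 1 z * m' = 1 ∧
      aeval (mE ψ 0 (-1) 1 z + m') (p ^ (k + 1)) = 0 ∧ aeval (mE ψ 0 (-1) 1 z + m') (p ^ k) * (mE ψ 0 (-1) 1 z - m') ≠ 0 by
    obtain ⟨ψ, z, m', l1, l2, l3⟩ := this
    exact gd_mE (tri_of_fpf hB ef_bE hg (bE_mE ψ (by simp)) ((sim_cmp h.two hB hg hg' hp hm k1 k3 k4).symm.trans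
      (sim_cmp h.two ef_bE (bE_mE ψ (by simp)) l1 hp hm l2 l3 (by rw [h.dim', ← hV, k4]))) h1 h2)
  rcases (Nat.dvd_prime Nat.prime_three).1 ⟨p.natDegree, show 3 = (k + 1) * p.natDegree by omega⟩ with e | e
  · obtain rfl : k = 0 := by omega
    obtain ⟨z, hz⟩ := exists_root (E := E) hp hm (by rw [h.dim]; exact ⟨1, by omega⟩)
    refine ⟨1, z, mE 1 z 1 (-1) 0, LinearMap.ext fun x => by simp [mE_apply], ?_, fun e => h.two ?_⟩
    · rw [show mE 1 0 (-1) 1 z + mE 1 z 1 (-1) 0 = Algebra.lsmul F F (E × E) z from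
        LinearMap.ext fun x => by simp [mE_apply, Prod.ext_iff], aeval_algHom_apply]
      simp [hz]
    · have := congrArg Prod.snd (LinearMap.congr_fun e (1, 0))
      refine (algebraMap F E).injective ?_
      simpa [mE_apply, map_ofNat, one_add_one_eq_two] using this
  obtain rfl : k = 2 := by omega
  obtain ⟨t, rfl⟩ : ∃ t, p = X - C t := ⟨-p.coeff 0, by simpa using hm.eq_X_add_C (by omega)⟩
  have ht : t ^ 2 - 4 ≠ 0 := fun e => by
    obtain ⟨y, hy⟩ := DFunLike.ne_iff.1 k2
    have := LinearMap.congr_fun k1 y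
    rw [pow_succ', map_mul, End.mul_apply] at this
    generalize aeval (g + g') ((X - C t) ^ 2) y = x at this hy
    simp only [map_sub, aeval_X, aeval_C, LinearMap.sub_apply, LinearMap.add_apply, Module.algebraMap_end_apply,
      LinearMap.zero_apply, sub_eq_zero] at this
    refine hy (a3 _ (sub_eq_zero.1 (a3 _ ?_)))
    have l1 := congrArg g this
    have l2 := congrArg g' this
    simp only [map_add, map_smul, a1, a2, map_sub] at l1 l2 ⊢
    linear_combination (norm := module) l1 + l2 + t • this + e • x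
  have a4 : ∀ s, φ (algebraMap F E s) = algebraMap F E s := φ.commutes
  set D := mE φ 0 (-1) 1 (algebraMap F E t) + mE (φ * φ) (algebraMap F E t) 1 (-1) 0 - algebraMap F _ t with hD
  have e1 : ∀ x, D (D x) = (t ^ 2 - 4) • (algebraMap F E (Algebra.trace F E x.1), algebraMap F E (Algebra.trace F E x.2)) :=
    fun x => by
      simp [hD, mE_apply, h.tr, h.ord, a4, Algebra.smul_def, Prod.ext_iff, map_ofNat]
      exact ⟨by linear_combination (algebraMap F E t * (φ x.2 - φ (φ x.2)) + 2 * x.1 + φ x.1 + φ (φ x.1) -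
        algebraMap F E t ^ 2 * φ (φ x.1)) * h.three, by linear_combination (algebraMap F E t * (φ (φ x.1) - φ x.1) +
        2 * x.2 + φ x.2 + φ (φ x.2) - algebraMap F E t ^ 2 * φ x.2) * h.three⟩
  refine ⟨φ, algebraMap F E t, mE (φ * φ) (algebraMap F E t) 1 (-1) 0,
    LinearMap.ext fun x => by simp [mE_apply, h.ord, a4], LinearMap.ext fun x => ?_, fun e => ht ?_⟩
  · rw [map_pow, map_sub, aeval_X, aeval_C, ← hD, pow_succ', sq, End.mul_apply, End.mul_apply, e1 x, map_smul]
    simp [hD, mE_apply, a4, Algebra.smul_def]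
  · obtain ⟨a, ha⟩ := exists_tr_one (F := F) (E := E)
    have := congrArg Prod.snd (LinearMap.congr_fun e (a, 0))
    rw [map_pow, map_sub, aeval_X, aeval_C, ← hD, sq, End.mul_apply, End.mul_apply, e1] at this
    simp [mE_apply, Algebra.trace_eq_of_algEquiv, ha, ← map_add] at this
    exact this.resolve_right (by rw [map_add, Algebra.trace_eq_of_algEquiv, ha, one_add_one_eq_two]; exact h.two)

theorem Cub.mdl (h : Cub φ) (c : E) (x : E × E) : ((mE φ 1 0 c 1 - 1) ^ 3 :) x = (0, Algebra.trace F E c • x.1) ∧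
    (((mE φ 1 0 c 1 - 1) ^ 2 :) x).1 = algebraMap F E (Algebra.trace F E x.1) := by
  simp [pow_succ, mE_apply, h.ord, h.tr, Algebra.smul_def, Prod.ext_iff]
  exact ⟨⟨by linear_combination (φ x.1 - φ (φ x.1)) * h.three, by linear_combination (c * (φ x.1 - φ (φ x.1)) -
    φ c * φ (φ x.1) + φ x.2 - φ (φ x.2)) * h.three⟩, by linear_combination -φ x.1 * h.three⟩

theorem Cub.gd_uni (h : Cub φ) (H : Indec B g) (hB : EF B (-1)) (hV : finrank F V = 6)
    (hg : ∀ x y, B (g x) (g y) = B x y) (hg' : g * g' = 1) (hN : IsNilpotent (g - 1)) : Gd E B g := by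
  have := Module.Finite.of_finite (R := F) (M := E)
  have := Module.nontrivial_of_finrank_pos (R := F) (M := V) (by omega)
  obtain ⟨i, k1, k2⟩ := Nat.exists_not_and_succ_of_not_zero_of_exists (p := fun k => (g - 1) ^ k = 0) (by simp) hN
  have hu := uIso_iff.2 hg
  obtain ⟨k3, k4⟩ := lay_top k2 k1
  obtain ⟨a, ha⟩ := exists_tr_one (F := F) (E := E)
  have key : ∀ c, Tri B (g - 1) (bE F E) (mE φ 1 0 c 1 - 1) → Gd E B g := fun c k =>
    gd_mE (Tri.of_smul one_ne_zero (by simpa using k))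
  have hu' := fun c => uIso_iff.2 (bE_mE φ (a := 1) (b := 0) (c := c) (d := 1) (by simp))
  obtain ⟨k, rfl | rfl⟩ := i.even_or_odd'
  · have ev := (hB.beta hu _).even_of_alt (beta_self hu (hB.alt_of_neg h.two) (even_two_mul k))
    obtain ⟨d, hd⟩ := ev
    obtain rfl | rfl : k = 0 ∨ k = 1 := by
      have := (Nat.mul_le_mul_left (2 * k + 1) (show 2 ≤ _ by omega)).trans k4
      omega
    · obtain ⟨e, he⟩ := iso_of_alt hB.nondeg (hB.alt_of_neg h.two) (ef_bE (F := F) (E := E)).nondeg (ef_bE.alt_of_neg h.two)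
        (hV.trans h.dim'.symm)
      exact ⟨1, fun a => ⟨a, fun _ => rfl⟩, e, fun v => by simp [show g = 1 by simpa [sub_eq_zero] using k2], he⟩
    have l1 : (mE φ 1 0 0 1 - 1) ^ (2 * 1 + 1) = 0 := LinearMap.ext fun x => (h.mdl 0 x).1.trans (by simp)
    obtain ⟨l3, l4⟩ := lay_top l1 fun e => by simpa [e, ha] using (h.mdl 0 (a, 0)).2
    have a1 := beta_self (hu' 0) (ef_bE.alt_of_neg h.two) (even_two_mul 1)
    obtain ⟨d', hd'⟩ := (ef_bE.beta (hu' 0) _).even_of_alt a1
    have := h.dim'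
    exact key 0 (tri_of_top h.two hB ef_bE hu (hu' 0) k2 l1 (by omega) (by omega) (iso_of_alt (hB.beta hu _).nondeg
      (beta_self hu (hB.alt_of_neg h.two) (even_two_mul 1)) (ef_bE.beta (hu' 0) _).nondeg a1 (by omega)))
  obtain rfl : k = 2 := by have := H.uni h.two hB hg hg' k2 k1; omega
  have k5 : finrank F (Lay (g - 1) (2 * 2 + 1)) = 1 := by omega
  obtain ⟨x, hx⟩ := finrank_pos_iff_exists_ne_zero.1 k3
  have k6 : beta hu _ x x ≠ 0 := fun e => hx ((hB.beta hu _).nd x fun y => by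
    obtain ⟨s, rfl⟩ := (finrank_eq_one_iff_of_nonzero' x hx).1 k5 y
    simp [e])
  set c := beta hu _ x x • a
  have l1 : (mE φ 1 0 c 1 - 1) ^ (2 * 2 + 1 + 1) = 0 := LinearMap.ext fun x => by
    rw [show 2 * 2 + 1 + 1 = 3 + 3 from rfl, pow_add, End.mul_apply, (h.mdl c _).1, (h.mdl c _).1]
    simp
  have l2 : beta (hu' c) (2 * 2 + 1) (Submodule.Quotient.mk ⟨(a, 0), by simp [l1]⟩)
      (Submodule.Quotient.mk ⟨(a, 0), by simp [l1]⟩) = beta hu _ x x := by
    rw [beta_mk, pow_add _ 3 2, End.mul_apply, (h.mdl c _).1, (h.mdl c _).2]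
    simp [bE_apply, ha, c]
  obtain ⟨l3, l4⟩ := lay_top l1 fun e => k6 (by rw [← l2, beta_mk, e]; simp)
  have := h.dim'
  exact key c (tri_of_top h.two hB ef_bE hu (hu' c) k2 l1 (by omega) (by omega) (iso_of_one k5 (by omega) hx
    (fun e => k6 (by rw [← l2, e]; simp)) l2))

theorem Cub.gd (h : Cub φ) (H : Indec B g) (hB : EF B (-1)) (hV : finrank F V = 6)
    (hg : ∀ x y, B (g x) (g y) = B x y) (hg' : g * g' = 1) : Gd E B g := by
  have key : ∀ a : F, a * a = 1 → (∃ x, x ≠ 0 ∧ g x = a • x) → IsNilpotent (a • g - 1) := by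
    rintro a ha ⟨x, hx, k⟩
    obtain ⟨W, W₀, s, ⟨n, k1⟩, k2⟩ := exists_spl hg ha
    rcases H W s.inv fun x hx k => congrArg Subtype.val ((s.ef hB).nd ⟨x, hx⟩ fun y => k y y.2) with rfl | rfl
    · exact absurd (k2 x (eq_top_of_bot_isCompl s.compl ▸ trivial) k) hx
    refine ⟨n, LinearMap.ext fun v => ?_⟩
    have := aeval_intertwine (f := a • g.restrict s.inv - 1) (g := a • g - 1) (Submodule.subtype _) (fun _ => rfl)
      (X ^ n) ⟨v, Submodule.mem_top⟩
    simpa [k1] using this.symm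
  by_cases h1 : ∃ x, x ≠ 0 ∧ g x = (1 : F) • x
  · exact h.gd_uni H hB hV hg hg' (by simpa using key 1 (one_mul _) h1)
  by_cases h2 : ∃ x, x ≠ 0 ∧ g x = (-1 : F) • x
  · obtain ⟨m, k1, e, k2, k3⟩ := h.gd_uni (g := -g) (g' := -g') (fun W k => H W fun x hx => by simpa using k x hx) hB hV
      (by simpa using hg) (by simpa using hg') (by simpa using key (-1) (by simp) h2)
    exact ⟨-m, fun a => (k1 a).imp fun b k x => by simp [k], e, fun v => by simp [← k2], k3⟩
  push Not at h1 h2
  exact h.gd_fpf H hB hV hg hg' (fun x k => by_contra fun e => h1 x e (by simpa using k))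
    fun x k => by_contra fun e => h2 x e (by simpa using k)

theorem exists_cub [CharP F 3] : ∃ (E : Type) (_ : Field E) (_ : Algebra F E) (_ : Finite E) (φ : E ≃ₐ[F] E), Cub φ := by
  have := Fact.mk Nat.prime_three
  let E := FiniteField.Extension F 3 3
  have h3 : finrank F E = 3 := FiniteField.finrank_extension F 3 3
  have : CharP E 3 := charP_of_injective_algebraMap (algebraMap F E).injective 3
  have hφ : ∀ x : E, FiniteField.Extension.frob F 3 3 x = x ^ Nat.card F := fun x => FiniteField.Extension.frob_apply F 3 3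
  refine ⟨E, inferInstance, inferInstance, inferInstance, FiniteField.Extension.frob F 3 3, CharP.cast_eq_zero E 3, h3,
    fun x => ?_, fun x => ?_⟩
  · simp only [hφ, ← pow_mul, ← pow_three', ← FiniteField.natCard_extension F 3 3]
    exact Herm.pow_card_eq x
  · simp [hφ, FiniteField.algebraMap_trace_eq_sum_pow, h3, Finset.sum_range_succ, pow_succ, pow_mul]

/-- the natural representation -/
def spRep (B : LinearMap.BilinForm F V) : SG B →* End F V where
  toFun g := g.1
  map_one' := rfl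
  map_mul' _ _ := rfl

instance finite_SG : Finite (SG B) :=
  have := Module.finite_of_finite F (M := V)
  Finite.of_injective (fun g : SG B => (g.1 : V → V)) fun _ _ h => SG.ext (congrFun h)

theorem exists_pair (hB : EF B (-1)) {W : Submodule F V} (h : ∀ x ∈ W, (∀ y ∈ W, B x y = 0) → x = 0)
    (hW : finrank F W = 2) (h2 : (2 : F) ≠ 0) : ∃ e f, B e f = 1 ∧ W = Submodule.span F {e, f} := by
  obtain ⟨e, he, h0⟩ := (Submodule.ne_bot_iff W).1 (by rintro rfl; simp at hW)
  obtain ⟨f, hf, k⟩ := not_forall₂.1 (mt (h e he) h0)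
  have k1 : B e ((B e f)⁻¹ • f) = 1 := by simp [k]
  refine ⟨e, _, k1, (Submodule.eq_of_le_of_finrank_eq (Submodule.span_le.2 (Set.insert_subset he
    (Set.singleton_subset_iff.2 (W.smul_mem _ hf)))) ?_).symm⟩
  rw [← Matrix.range_cons_cons_empty, finrank_span_eq_card (pair_linearIndependent (hB.alt_of_neg h2)
    (k1 ▸ one_ne_zero)), hW]
  simp

theorem covZ_Sp6 [CharP F 3] (hB : EF B (-1)) (hV : finrank F V = 6) : CovZ (SG B) := by
  have := Module.nontrivial_of_finrank_pos (R := F) (M := V) (by omega)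
  obtain ⟨E, _, _, _, φ, h⟩ := exists_cub (F := F)
  have := Module.Finite.of_finite (R := F) (M := E)
  have hA := hB.alt_of_neg h.two
  obtain ⟨e, he⟩ := iso_of_alt (ef_bE (F := F) (E := E)).nondeg (ef_bE.alt_of_neg h.two) hB.nondeg hA (h.dim'.trans hV.symm)
  obtain ⟨u, hu⟩ := exists_ne (0 : V)
  obtain ⟨v, hv⟩ := exists_one hB.nondeg hA.isRefl hu
  have hc : ∀ z ∈ Subgroup.center (SG B), ∃ c : F, ∀ v, spRep B z v = c • v := fun z hz => by
    rcases (Classical.SpSimple.mem_center_iff hB.nondeg hA).mp hz with rfl | rfl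
    · exact ⟨1, fun v => (one_smul F v).symm⟩
    · exact ⟨-1, fun v => (neg_one_smul F v).symm⟩
  have hd : finrank F (Submodule.span F {u, v}) = 2 := by
    rw [← Matrix.range_cons_cons_empty, finrank_span_eq_card (pair_linearIndependent hA (hv ▸ one_ne_zero))]
    simp
  refine ⟨stW (spRep B) (Submodule.span F {u, v}), stE (spRep B) (Set.range (scl E e)), center_stW hc _, center_stE hc _,
    fun k => ?_, fun k => ?_, fun g => by_contra fun hn => hn ?_⟩
  · obtain ⟨w, hw⟩ := not_forall.1 (mt Submodule.eq_top_iff'.2 fun e : Submodule.span F {u, v} = ⊤ => by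
      rw [e, finrank_top] at hd; omega)
    have k1 : ∀ w ∉ Submodule.span F {u, v}, B u w = 0 := fun w hw => by_contra fun k1 => by
      have := (k.ge (Subgroup.mem_top (tv hA w 1))) u (Submodule.subset_span (by simp))
      rw [show spRep B _ u = _ from tv_apply hA w 1 u, Submodule.add_mem_iff_right _ (Submodule.subset_span (by simp)),
        Submodule.smul_mem_iff _ (by simpa using k1)] at this
      exact hw this
    simpa [k1 w hw, hv] using k1 (w + v) (by rwa [Submodule.add_mem_iff_left _ (Submodule.subset_span (by simp))])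
  · exact not_mem_stE (ρ := spRep B) _ (by rw [h.dim]; decide) (by omega) (g := tv hA v 1) (l := B.flip v) (y := u) (v := v)
      (by rintro rfl; simp at hv) (by simp [hv]) (fun x => (tv_apply hA v 1 x).trans (by simp)) (k.ge trivial)
  have key : ∀ W : Submodule F V, (∀ x ∈ W, g.1 x ∈ W) → (∀ x ∈ W, (∀ y ∈ W, B x y = 0) → x = 0) → finrank F W ≠ 2 :=
    fun W k1 k2 k3 => by
      obtain ⟨a, b, k4, rfl⟩ := exists_pair hB k2 k3 h.two
      obtain ⟨x, -, k5, k6⟩ := witt_two hB.nondeg hA ⊤ (fun _ _ => trivial) (pair_linearIndependent hA (k4 ▸ one_ne_zero))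
        (pair_linearIndependent hA (hv ▸ one_ne_zero)) (hv.trans k4.symm)
      exact hn ⟨x, Or.inl (stW_conj k1 (by rw [Submodule.map_span, Set.image_pair, ← k5, ← k6]; rfl))⟩
  have H : Indec B (spRep B g) := fun W k1 k2 => by
    by_contra! k
    have k3 := Submodule.finrank_lt k.2
    have k4 := (Submodule.finrank_eq_zero (S := W)).not.2 k.1
    have k5 := key W k1 k2
    have k6 := key (B.orthogonal W) (perp_inv (g := ⟨g.1, g.2⟩) k1) fun x hx k => k2 x
      (LinearMap.BilinForm.orthogonal_orthogonal hB.nondeg hA.isRefl W ▸ fun y hy => hB.zero_symm (k y hy))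
      fun y hy => hB.zero_symm (hx y hy)
    rw [LinearMap.BilinForm.finrank_orthogonal hB.nondeg] at k6
    obtain ⟨d, hd⟩ := EF.even_of_alt (B := B.restrict W) ⟨hB.invol, hB.eps, fun x y => hB.symm x y, fun x hx =>
      Subtype.ext (k2 _ x.2 fun y hy => hx ⟨y, hy⟩)⟩ fun x => hA x
    omega
  obtain ⟨m, k1, f, k2, k3⟩ := h.gd (g' := spRep B g⁻¹) H hB hV g.2 (by rw [← map_mul, mul_inv_cancel, map_one])
  refine ⟨⟨f.trans e, fun x y => (he _ _).trans (k3 x y)⟩, Or.inr (mem_stE (fun v => ?_) k1)⟩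
  exact (congrArg e (k2 _)).trans (congrArg e (congrArg m (f.apply_symm_apply _)))

theorem cov_PSp3 [CharP F 3] : Cov (Cfsg.PSp 3 F) :=
  (covZ_Sp6 (ef_of_alt Classical.SpMat.sB_nondeg Classical.SpMat.sB_alt) (by simp)).quot (Classical.SpMat.spEquiv _ F)

end Cfsg.Agent.Cvr
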